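import Cfsg.Agent.Known.SU3Model
import Cfsg.Agent.Known.SU3Root
import Cfsg.Agent.Known.RegUnipThree

/-!
Two conjugate regular unipotents generate `SU₃(q)`, `q` even, `q ≠ 2, 8`.
-/

set_option autoImplicit false
set_option maxHeartbeats 1000000

namespace Cfsg.Agent.Known.SU3

open Matrix

theorem arith_exception {m i : ℕ} (hm : 2 ≤ m) (hi : 1 ≤ i) (hki : 2 * i ≤ m)
    (h : 2 ^ m + 1 ∣ 3 * (2 ^ (2 * i) - 1)) : m = 3 := by
  have h1 : 2 ^ (2 * i) ≤ 2 ^ m := Nat.pow_le_pow_right (by norm_num) hki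
  have h4 : 4 ≤ 2 ^ (2 * i) := by
    calc 4 = 2 ^ 2 := by norm_num
      _ ≤ _ := Nat.pow_le_pow_right (by norm_num) (by omega)
  obtain ⟨a, ha⟩ : 2 ∣ 2 ^ (2 * i) := dvd_pow_self 2 (by omega)
  obtain ⟨b, hb⟩ : 2 ∣ 2 ^ m := dvd_pow_self 2 (by omega)
  obtain ⟨r, hr⟩ := h
  have hr3 : r < 3 := by
    by_contra hh
    have : (2 ^ m + 1) * 3 ≤ (2 ^ m + 1) * r := Nat.mul_le_mul_left _ (by omega)
    omega
  have hr1 : r = 1 := by
    interval_cases r <;> omega
  subst hr1
  have e : 3 * 2 ^ (2 * i) = 2 ^ m + 4 := by omega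
  by_contra hne
  have hm2 : m ≠ 2 := by
    rintro rfl
    have : i = 1 := by omega
    subst this
    norm_num at e
  have h16 : (16 : ℕ) ∣ 2 ^ m := by
    have := Nat.pow_dvd_pow 2 (show 4 ≤ m by omega)
    norm_num at this
    exact this
  rcases Nat.lt_or_ge i 2 with h2 | h2
  · have : i = 1 := by omega
    subst this
    omega
  · have h16' : (16 : ℕ) ∣ 2 ^ (2 * i) := by
      have := Nat.pow_dvd_pow 2 (show 4 ≤ 2 * i by omega)
      norm_num at this
      exact this
    omega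

variable {F : Type*} [Field F] [Fintype F] {φ : F →+* F} {q : ℕ}

theorem exists_even (hF : Frob φ q) (h2 : (2 : F) = 0) (hq2 : q ≠ 2) (hq8 : q ≠ 8) :
    ∃ u g : SpecialLinearGroup (Fin 3) F, Iso φ u ∧ Iso φ g ∧
      ((u : Matrix (Fin 3) (Fin 3) F) - 1) ^ 3 = 0 ∧ ((u : Matrix (Fin 3) (Fin 3) F) - 1) ^ 2 ≠ 0 ∧
      ∀ G : Subgroup (SpecialLinearGroup (Fin 3) F), u ∈ G → g * u * g⁻¹ ∈ G →
        ∀ v, H φ v v = 0 → Full φ G v := by
  classical
  haveI : CharP F 2 := CharTwo.of_one_ne_zero_of_two_eq_zero one_ne_zero h2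
  obtain ⟨b, hb0⟩ := hF.hF.exists_trace (c := (1 : F)) (one_pow q)
  have hb : b + φ b = 1 := by rw [hF.hφ]; exact hb0
  obtain ⟨ζ, hζ⟩ := IsCyclic.exists_generator (α := Fˣ)
  have hord : orderOf ζ = q ^ 2 - 1 := by
    rw [orderOf_eq_card_of_forall_mem_zpowers hζ, Nat.card_units, hF.hF.2]
  set κ : F := (ζ : F) with hκ
  have hκ0 : κ ≠ 0 := ζ.ne_zero
  have hφκ : φ κ ≠ 0 := by simpa using hκ0
  set u := upU φ (1 : F) b with hu
  set g := tor φ κ hκ0 * wJ with hg
  set y := φ κ / κ ^ 2 with hy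
  have hy0 : y ≠ 0 := div_ne_zero hφκ (pow_ne_zero 2 hκ0)
  have hui : Iso φ u := iso_upU hF.invol (by rw [map_one, hb, mul_one]; linear_combination h2)
  have hgi : Iso φ g := (iso_tor hF.invol κ hκ0).mul iso_wJ
  -- the subgroup of transvection parameters
  set w := y / φ y with hw
  have hφy0 : φ y ≠ 0 := by simpa using hy0
  have hwq : w = κ ^ (3 * (q - 1)) := by
    have e3 : κ ^ (3 * (q - 1)) = φ κ ^ 3 / κ ^ 3 := by
      rw [eq_div_iff (pow_ne_zero 3 hκ0), hF.hφ, ← pow_mul, ← pow_add]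
      congr 1
      have := hF.hq
      omega
    rw [e3, hw, hy, map_div₀, map_pow, hF.invol]
    field_simp
  have hdvd : ∀ j : ℕ, w ^ j = 1 → q + 1 ∣ 3 * j := by
    intro j hj
    rw [hwq, ← pow_mul] at hj
    have h : q ^ 2 - 1 ∣ 3 * (q - 1) * j := by
      rw [← hord]
      exact orderOf_dvd_of_pow_eq_one (Units.ext (by simpa using hj))
    rw [show q ^ 2 - 1 = (q - 1) * (q + 1) by
      rw [mul_comm, ← Nat.sq_sub_sq, one_pow], show 3 * (q - 1) * j = (q - 1) * (3 * j) by ring] at h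
    have := hF.hq
    exact Nat.dvd_of_mul_dvd_mul_left (by omega) h
  have hq3 : 3 ≤ q := by have := hF.hq; omega
  have hsum : y + φ y ≠ 0 := by
    intro h
    have hy' : y = φ y := by
      have := eq_neg_of_add_eq_zero_left h
      rwa [CharTwo.neg_eq] at this
    have e : w = 1 := by rw [hw, ← hy', div_self hy0]
    have := Nat.le_of_dvd (by norm_num) (hdvd 1 (by rw [pow_one, e]))
    omega
  refine ⟨u, g, hui, hgi, ?_, ?_, fun G hG1 hG2 => ?_⟩
  · simp [hu, val_upU, pow_succ, Matrix.one_fin_three, Matrix.sub_apply]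
    ext i j; fin_cases i <;> fin_cases j <;> simp [Matrix.mul_apply, Fin.sum_univ_three]
  · intro h
    have := congrFun₂ h 0 2
    simp [hu, val_upU, pow_two, Matrix.mul_apply, Fin.sum_univ_three] at this
  set β := b / (κ * φ κ) with hβ
  set v := loU φ y β with hv
  have hgv : g * u * g⁻¹ = v := by
    rw [mul_inv_eq_iff_eq_mul]
    refine Subtype.ext ?_
    rw [hg, hu, hv]
    simp only [val_mul, val_tor, val_wJ, val_upU, val_loU]
    ext i j
    fin_cases i <;> fin_cases j <;>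
      simp [Matrix.mul_apply, Fin.sum_univ_three, CharTwo.neg_eq, hy, hβ, hF.invol] <;> field_simp
  rw [hgv] at hG2
  let D : Plane φ :=
    { p1 := ![1, 0, 0]
      p2 := ![0, 0, 1]
      θ := 1
      hφ2 := hF.invol
      h11 := by simp [H_eq]
      h22 := by simp [H_eq]
      h12 := by simp [H_eq]
      hθ := by rw [map_one, CharTwo.neg_eq]
      hθ0 := one_ne_zero }
  have hb1m : y * φ y ∈ F0 φ := by rw [mem_F0, map_mul, hF.invol, mul_comm]
  have h2' : (2 : F0 φ) = 0 := Subtype.ext h2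
  set M := G.comap D.ψ with hM
  have hup : upp 1 ∈ M := by
    show D.ψ (upp 1) ∈ G
    rw [D.val_ψ_upp _ 1 (val_upp _)]
    convert G.mul_mem hG1 hG1 using 1
    refine Subtype.ext ?_
    rw [val_T D.h11, val_mul, hu, val_upU]
    ext i j
    fin_cases i <;> fin_cases j <;>
      simp [D, jv, vecMulVec, Matrix.mul_apply, Fin.sum_univ_three, CharTwo.neg_eq, CharTwo.add_self_eq_zero]
    linear_combination -b * h2
  have hlo1 : lo ⟨y * φ y, hb1m⟩ ∈ M := by
    show D.ψ (lo _) ∈ G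
    rw [D.val_ψ_low _ _ (val_lo _)]
    convert G.mul_mem hG2 hG2 using 1
    refine Subtype.ext ?_
    rw [val_T D.h22, val_mul, hv, val_loU]
    ext i j
    fin_cases i <;> fin_cases j <;>
      simp [D, jv, vecMulVec, Matrix.mul_apply, Fin.sum_univ_three, CharTwo.neg_eq, CharTwo.add_self_eq_zero]
    linear_combination -β * h2
  have hb1 : (⟨y * φ y, hb1m⟩ : F0 φ) ≠ 0 := fun e => mul_ne_zero hy0 hφy0 (congrArg Subtype.val e)
  obtain ⟨d, hd, d00, d10⟩ := exists_swap h2' hb1 M hup hlo1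
  set s : F0 φ := (d : Matrix (Fin 2) (Fin 2) (F0 φ)) 1 0 with hs
  have hs0 : (s : F) ≠ 0 := fun e => hb1 (by
    rw [← d10, show s = 0 from Subtype.ext e]; exact zero_pow two_ne_zero)
  have hs2 : (s : F) ^ 2 = y * φ y := congrArg Subtype.val d10
  set v' := loU φ (s : F) ((s : F) ^ 2 * b) with hv'
  have hdet := d.2
  rw [det_fin_two, d00, zero_mul, zero_sub] at hdet
  have hdet' : -(((d : Matrix (Fin 2) (Fin 2) (F0 φ)) 0 1 : F) * (s : F)) = 1 := congrArg Subtype.val hdet
  have hv'G : v' ∈ G := by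
    have e : D.ψ d * u = v' * D.ψ d := by
      refine Subtype.ext ?_
      rw [hu, hv']
      simp only [val_mul, Plane.val_ψ, val_upU, val_loU]
      ext i j
      fin_cases i <;> fin_cases j <;>
        simp [D, Plane.Z, Plane.C, jv, Matrix.mul_apply, Fin.sum_univ_three, Fin.sum_univ_two, d00, ← hs,
          CharTwo.neg_eq, CharTwo.add_self_eq_zero, coe_F0] <;>
        first
        | linear_combination hdet' + h2
        | linear_combination ((s : F) * b) * (hdet' + h2)
    rw [eq_mul_inv_iff_mul_eq.2 e.symm]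
    exact G.mul_mem (G.mul_mem hd hG1) (G.inv_mem hd)
  have hb2m : (s : F) * (y + φ y) ∈ F0 φ := by
    rw [mem_F0, map_mul, map_add, hF.invol, coe_F0, add_comm (φ y)]
  have hlo2 : lo ⟨(s : F) * (y + φ y), hb2m⟩ ∈ M := by
    show D.ψ (lo _) ∈ G
    rw [D.val_ψ_low _ _ (val_lo _)]
    have e : v * v' = T φ D.p2 ((s : F) * (y + φ y) / D.θ) * (v' * v) := by
      refine Subtype.ext ?_
      rw [val_mul, val_mul, val_mul, val_T D.h22, hv, hv', val_loU, val_loU]
      ext i j
      fin_cases i <;> fin_cases j <;>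
        simp [D, jv, vecMulVec, Matrix.mul_apply, Fin.sum_univ_three, CharTwo.neg_eq, coe_F0] <;>
        first
        | linear_combination (0 : F)
        | linear_combination -((s : F) * y) * h2
    rw [eq_mul_inv_iff_mul_eq.2 e.symm]
    exact G.mul_mem (G.mul_mem hG2 hv'G) (G.inv_mem (G.mul_mem hv'G hG2))
  have hb2 : (⟨(s : F) * (y + φ y), hb2m⟩ : F0 φ) ≠ 0 := fun e =>
    mul_ne_zero hs0 hsum (congrArg Subtype.val e)
  have hgen : ∀ L : Subfield (F0 φ),
      (⟨(s : F) * (y + φ y), hb2m⟩ : F0 φ) / ⟨y * φ y, hb1m⟩ ∈ L → L = ⊤ := by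
    intro L hL
    by_contra hne
    set k := Nat.card L with hk
    have hk2 : k * k ≤ q := (RegUnipThree.sq_card_le hne).trans_eq hF.card_F0
    haveI : Fintype L := Fintype.ofFinite L
    haveI : CharP L 2 := CharTwo.of_one_ne_zero_of_two_eq_zero one_ne_zero (Subtype.ext h2')
    obtain ⟨j, -, hj⟩ := FiniteField.card L 2
    rw [← Nat.card_eq_fintype_card, ← hk] at hj
    set r : F := (s : F) * (y + φ y) / (y * φ y) with hr
    have hrk : r ^ k = r := by
      have h := congrArg (fun z : L => ((z : F0 φ) : F)) (FiniteField.pow_card (⟨_, hL⟩ : L))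
      rw [hk, Nat.card_eq_fintype_card]
      simpa [hr] using h
    have hr2 : r ^ 2 = w + w⁻¹ := by
      rw [hr, div_pow, mul_pow, hs2, hw, inv_div]
      field_simp
      linear_combination (y * φ y) * h2
    have hw0 : w ≠ 0 := div_ne_zero hy0 hφy0
    have h := congrArg (fun z => z ^ 2) hrk
    simp only [← pow_mul] at h
    rw [mul_comm k 2, pow_mul, hr2, hj, add_pow_char_pow, ← hj, inv_pow] at h
    have hwk : w ^ k ≠ 0 := pow_ne_zero _ hw0
    have h' : (w ^ k - w) * (w ^ k * w - 1) = 0 := by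
      field_simp at h
      linear_combination h
    have hkk : w ^ (k * k) = w := by
      rw [pow_mul]
      rcases mul_eq_zero.1 h' with e | e
      · rw [sub_eq_zero.1 e, sub_eq_zero.1 e]
      · have e' : w ^ k = w⁻¹ := eq_inv_of_mul_eq_one_left (sub_eq_zero.1 e)
        rw [e', inv_pow, e', inv_inv]
    have hk1 : 2 ≤ k := Finite.one_lt_card
    have h1 : w ^ (k * k - 1) = 1 := by
      refine mul_right_cancel₀ hw0 ?_
      rw [← pow_succ, one_mul, Nat.sub_add_cancel (by nlinarith), hkk]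
    have hd := hdvd _ h1
    obtain ⟨m, -, hm⟩ := FiniteField.card F 2
    have hqm : (2 : ℕ) ^ (m : ℕ) = q ^ 2 := by rw [← hm, ← Nat.card_eq_fintype_card]; exact hF.hF.2
    obtain ⟨n, hn, hqn⟩ := (Nat.dvd_prime_pow Nat.prime_two).1
      (show q ∣ 2 ^ (m : ℕ) by rw [hqm]; exact dvd_pow_self q two_ne_zero)
    rw [hqn, hj, ← pow_add, ← two_mul] at hd hk2
    have hn3 := arith_exception (by
      rcases n with _ | _ | n
      · simp at hqn; omega
      · simp at hqn; omega
      · omega) j.pos ((Nat.pow_le_pow_iff_right (by norm_num)).1 hk2) hd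
    rw [hn3] at hqn
    exact hq8 (by rw [hqn]; norm_num)
  have htop := eq_top_of_three h2' hb1 hb2 hgen M hup hlo1 hlo2
  have hall : ∀ A, D.ψ A ∈ G := fun A => by
    have hA : A ∈ M := by rw [htop]; exact Subgroup.mem_top A
    exact hA
  refine D.full_all hall hG1 hui D.h22 (D.full_p2 hall) ?_
  simp [D, hu, val_upU, det_fin_three, mulVec, dotProduct, Fin.sum_univ_three]

end Cfsg.Agent.Known.SU3
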