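import Cfsg.Agent.Known.SU3Small
import Cfsg.Agent.Known.SU3Even

/-!
Two conjugate regular unipotents generate `SU₃(8)`: an explicit word gives a second transvection
parameter.
-/

set_option autoImplicit false
set_option maxHeartbeats 2000000

namespace Cfsg.Agent.Known.SU3

open Matrix

/-- `𝔽₂[z]/(z⁶ + z + 1)`. -/
@[ext] structure Q64 where
  /-- coefficient 0 -/
  c0 : ZMod 2
  /-- coefficient 1 -/
  c1 : ZMod 2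
  /-- coefficient 2 -/
  c2 : ZMod 2
  /-- coefficient 3 -/
  c3 : ZMod 2
  /-- coefficient 4 -/
  c4 : ZMod 2
  /-- coefficient 5 -/
  c5 : ZMod 2
  deriving DecidableEq

instance : Add Q64 := ⟨fun x y => ⟨x.c0 + y.c0, x.c1 + y.c1, x.c2 + y.c2, x.c3 + y.c3, x.c4 + y.c4, x.c5 + y.c5⟩⟩
instance : Mul Q64 := ⟨fun x y => ⟨x.c0 * y.c0 + x.c1 * y.c5 + x.c2 * y.c4 + x.c3 * y.c3 + x.c4 * y.c2 + x.c5 * y.c1,
  x.c0 * y.c1 + x.c1 * y.c0 + x.c1 * y.c5 + x.c2 * y.c4 + x.c3 * y.c3 + x.c4 * y.c2 + x.c5 * y.c1 + x.c2 * y.c5 + x.c3 * y.c4 + x.c4 * y.c3 + x.c5 * y.c2,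
  x.c0 * y.c2 + x.c1 * y.c1 + x.c2 * y.c0 + x.c2 * y.c5 + x.c3 * y.c4 + x.c4 * y.c3 + x.c5 * y.c2 + x.c3 * y.c5 + x.c4 * y.c4 + x.c5 * y.c3,
  x.c0 * y.c3 + x.c1 * y.c2 + x.c2 * y.c1 + x.c3 * y.c0 + x.c3 * y.c5 + x.c4 * y.c4 + x.c5 * y.c3 + x.c4 * y.c5 + x.c5 * y.c4,
  x.c0 * y.c4 + x.c1 * y.c3 + x.c2 * y.c2 + x.c3 * y.c1 + x.c4 * y.c0 + x.c4 * y.c5 + x.c5 * y.c4 + x.c5 * y.c5,
  x.c0 * y.c5 + x.c1 * y.c4 + x.c2 * y.c3 + x.c3 * y.c2 + x.c4 * y.c1 + x.c5 * y.c0 + x.c5 * y.c5⟩⟩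
instance : Neg Q64 := ⟨fun x => x⟩
instance : Zero Q64 := ⟨⟨0, 0, 0, 0, 0, 0⟩⟩
instance : One Q64 := ⟨⟨1, 0, 0, 0, 0, 0⟩⟩

/-- The Frobenius `x ↦ x⁸` of the model. -/
def frob8 (x : Q64) : Q64 :=
  let a := x * x
  let b := a * a
  b * b

/-- Three by three matrices over the model. -/
@[ext] structure M64 where
  /-- entry -/
  m00 : Q64
  /-- entry -/
  m01 : Q64
  /-- entry -/
  m02 : Q64
  /-- entry -/
  m10 : Q64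
  /-- entry -/
  m11 : Q64
  /-- entry -/
  m12 : Q64
  /-- entry -/
  m20 : Q64
  /-- entry -/
  m21 : Q64
  /-- entry -/
  m22 : Q64
  deriving DecidableEq

instance : Mul M64 := ⟨fun A B => ⟨A.m00 * B.m00 + A.m01 * B.m10 + A.m02 * B.m20, A.m00 * B.m01 + A.m01 * B.m11 + A.m02 * B.m21, A.m00 * B.m02 + A.m01 * B.m12 + A.m02 * B.m22, A.m10 * B.m00 + A.m11 * B.m10 + A.m12 * B.m20, A.m10 * B.m01 + A.m11 * B.m11 + A.m12 * B.m21, A.m10 * B.m02 + A.m11 * B.m12 + A.m12 * B.m22, A.m20 * B.m00 + A.m21 * B.m10 + A.m22 * B.m20, A.m20 * B.m01 + A.m21 * B.m11 + A.m22 * B.m21, A.m20 * B.m02 + A.m21 * B.m12 + A.m22 * B.m22⟩⟩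

/-- upper unipotent in the model -/
def mU (a b : Q64) : M64 := ⟨1, a, b, 0, 1, frob8 a, 0, 0, 1⟩
/-- lower unipotent in the model -/
def mL (a b : Q64) : M64 := ⟨1, 0, 0, a, 1, 0, b, frob8 a, 1⟩
/-- torus times the monomial element in the model -/
def mTJ (a c d : Q64) : M64 := ⟨a, 0, 0, 0, c, 0, 0, 0, d⟩ * ⟨0, 0, 1, 0, 1, 0, 1, 0, 0⟩

/-- the model of `u` -/
def u8 : M64 := mU 1 ⟨0, 1, 0, 0, 0, 1⟩
/-- the model of `v` -/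
def v8 : M64 := ⟨1, 0, 0, ⟨1, 1, 0, 0, 0, 0⟩, 1, 0, ⟨1, 0, 1, 1, 1, 0⟩, ⟨1, 0, 1, 1, 0, 0⟩, 1⟩
/-- the model of `g` -/
def g8 : M64 := mL ⟨0, 1, 0, 0, 0, 0⟩ ⟨0, 0, 1, 0, 0, 1⟩ * mTJ ⟨0, 1, 0, 0, 0, 0⟩ ⟨0, 1, 1, 0, 0, 0⟩ ⟨0, 1, 1, 1, 0, 1⟩
/-- inverses -/
def ui8 : M64 := u8 * u8 * u8
/-- inverses -/
def vi8 : M64 := v8 * v8 * v8

theorem conj8 : g8 * u8 = v8 * g8 := by decide +kernel

theorem word8 : u8 * vi8 * ui8 * v8 * u8 * u8 * vi8 * ui8 * ui8 * vi8 * u8 * v8 = mU 0 ⟨0, 0, 0, 1, 1, 0⟩ := by decide +kernel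

theorem usq8 : u8 * u8 = mU 0 1 := by decide +kernel

theorem vsq8 : v8 * v8 = mL 0 ⟨1, 1, 1, 0, 1, 0⟩ := by decide +kernel

theorem facts8 : frob8 ⟨0, 0, 0, 1, 1, 0⟩ = ⟨0, 0, 0, 1, 1, 0⟩ ∧ frob8 ⟨1, 1, 1, 0, 1, 0⟩ = ⟨1, 1, 1, 0, 1, 0⟩ ∧ frob8 ⟨0, 1, 0, 0, 0, 0⟩ = ⟨0, 0, 1, 1, 0, 0⟩ ∧
    (⟨0, 0, 1, 1, 0, 0⟩ : Q64) * ⟨0, 1, 1, 1, 0, 1⟩ = 1 ∧ (⟨0, 1, 1, 0, 0, 0⟩ : Q64) * ⟨0, 1, 0, 0, 0, 0⟩ = ⟨0, 0, 1, 1, 0, 0⟩ ∧
    (⟨0, 1, 0, 0, 0, 1⟩ : Q64) + frob8 ⟨0, 1, 0, 0, 0, 1⟩ + 1 = 0 ∧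
    (⟨0, 0, 1, 0, 0, 1⟩ : Q64) + frob8 ⟨0, 0, 1, 0, 0, 1⟩ + ⟨0, 1, 0, 0, 0, 0⟩ * frob8 ⟨0, 1, 0, 0, 0, 0⟩ = 0 ∧
    (⟨0, 0, 0, 1, 1, 0⟩ : Q64) ≠ 0 ∧ (⟨0, 0, 0, 1, 1, 0⟩ : Q64) + 1 ≠ 0 ∧ (⟨1, 1, 1, 0, 1, 0⟩ : Q64) ≠ 0 := by decide +kernel

theorem q64_inv : ∀ a b c d e f : ZMod 2, (⟨a, b, c, d, e, f⟩ : Q64) = 0 ∨
    ∃ a' b' c' d' e' f' : ZMod 2, (⟨a, b, c, d, e, f⟩ : Q64) * ⟨a', b', c', d', e', f'⟩ = 1 := by
  decide +kernel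

theorem root_identity {R : Type*} [CommRing R] (x : R) (h2 : (2 : R) = 0) :
    (x ^ 6 + x + 1) * (x ^ 1 + x ^ 2 + x ^ 3 + x ^ 4 + x ^ 5 + x ^ 6 + x ^ 8 + x ^ 10 + x ^ 12 + x ^ 13 + x ^ 16 + x ^ 17 + x ^ 19 + x ^ 20 + x ^ 21 + x ^ 23 + x ^ 24 + x ^ 26 + x ^ 29 + x ^ 32 + x ^ 33 + x ^ 34 + x ^ 38 + x ^ 40 + x ^ 41 + x ^ 42 + x ^ 43 + x ^ 46 + x ^ 48 + x ^ 52 + x ^ 53 + x ^ 58) = x ^ 64 + x := by
  linear_combination (x ^ 2 + x ^ 3 + x ^ 4 + x ^ 5 + x ^ 6 + x ^ 7 + x ^ 8 + x ^ 9 + x ^ 10 + x ^ 11 + x ^ 12 + x ^ 13 + x ^ 14 + x ^ 16 + x ^ 17 + x ^ 18 + x ^ 19 + x ^ 20 + x ^ 21 + x ^ 22 + x ^ 23 + x ^ 24 + x ^ 25 + x ^ 26 + x ^ 27 + x ^ 29 + x ^ 30 + x ^ 32 + x ^ 33 + x ^ 34 + x ^ 35 + x ^ 38 + x ^ 39 + x ^ 40 + x ^ 41 + x ^ 42 + x ^ 43 + x ^ 44 + x ^ 46 + x ^ 47 + x ^ 48 + x ^ 49 + x ^ 52 + x ^ 53 + x ^ 54 + x ^ 58 + x ^ 59) * h2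

theorem exists_emb64 {F : Type*} [Field F] [Fintype F] [CharP F 2] (hF : Fintype.card F = 64) :
    ∃ f : Q64 → F, Emb f := by
  classical
  have h2 : (2 : F) = 0 := CharTwo.two_eq_zero
  set Q : Polynomial F := Polynomial.X ^ 1 + Polynomial.X ^ 2 + Polynomial.X ^ 3 + Polynomial.X ^ 4 + Polynomial.X ^ 5 + Polynomial.X ^ 6 + Polynomial.X ^ 8 + Polynomial.X ^ 10 + Polynomial.X ^ 12 + Polynomial.X ^ 13 + Polynomial.X ^ 16 + Polynomial.X ^ 17 + Polynomial.X ^ 19 + Polynomial.X ^ 20 + Polynomial.X ^ 21 + Polynomial.X ^ 23 + Polynomial.X ^ 24 + Polynomial.X ^ 26 + Polynomial.X ^ 29 + Polynomial.X ^ 32 + Polynomial.X ^ 33 + Polynomial.X ^ 34 + Polynomial.X ^ 38 + Polynomial.X ^ 40 + Polynomial.X ^ 41 + Polynomial.X ^ 42 + Polynomial.X ^ 43 + Polynomial.X ^ 46 + Polynomial.X ^ 48 + Polynomial.X ^ 52 + Polynomial.X ^ 53 + Polynomial.X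 ^ 58 with hQ
  have hdeg : Q.natDegree = 58 := by rw [hQ]; compute_degree!
  obtain ⟨r, hr⟩ : ∃ r : F, r ^ 6 + r + 1 = 0 := by
    by_contra hno
    push Not at hno
    have hsub : (Finset.univ : Finset F) ⊆ Q.roots.toFinset := fun x _ => by
      rw [Multiset.mem_toFinset, Polynomial.mem_roots (fun e => by simp [e] at hdeg), Polynomial.IsRoot, hQ]
      simp only [Polynomial.eval_add, Polynomial.eval_pow, Polynomial.eval_X]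
      have e := root_identity x h2
      have hx := FiniteField.pow_card x
      rw [hF] at hx
      rw [hx, CharTwo.add_self_eq_zero] at e
      exact (mul_eq_zero.1 e).resolve_left (hno x)
    have := (Finset.card_le_card hsub).trans
      ((Multiset.toFinset_card_le _).trans ((Polynomial.card_roots' Q).trans hdeg.le))
    rw [Finset.card_univ, hF] at this
    omega
  have hr6 : r ^ 6 = r + 1 := by linear_combination hr - (r + 1) * h2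
  haveI : Fact (Nat.Prime 2) := ⟨Nat.prime_two⟩
  set ι := ZMod.castHom (dvd_refl 2) F
  let f : Q64 → F := fun x => ι x.c0 + ι x.c1 * r + ι x.c2 * r ^ 2 + ι x.c3 * r ^ 3 + ι x.c4 * r ^ 4 + ι x.c5 * r ^ 5
  have hmul : ∀ x y, f (x * y) = f x * f y := fun x y => by
    show ι (x.c0 * y.c0 + x.c1 * y.c5 + x.c2 * y.c4 + x.c3 * y.c3 + x.c4 * y.c2 + x.c5 * y.c1) + ι (x.c0 * y.c1 + x.c1 * y.c0 + x.c1 * y.c5 + x.c2 * y.c4 + x.c3 * y.c3 + x.c4 * y.c2 + x.c5 * y.c1 + x.c2 * y.c5 + x.c3 * y.c4 + x.c4 * y.c3 + x.c5 * y.c2) * r + ι (x.c0 * y.c2 + x.c1 * y.c1 + x.c2 * y.c0 + x.c2 * y.c5 + x.c3 * y.c4 + x.c4 * y.c3 + x.c5 * y.c2 + x.c3 * y.c5 + x.c4 * y.c4 + x.c5 * y.c3) * r ^ 2 + ι (x.c0 * y.c3 + x.c1 * y.c2 + x.c2 * y.c1 + x.c3 * y.c0 + x.c3 * y.c5 + x.c4 * y.c4 + x.c5 * y.c3 + x.c4 * y.c5 + x.c5 * y.c4) * r ^ 3 + ι (x.c0 * y.c4 + x.c1 * y.c3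 + x.c2 * y.c2 + x.c3 * y.c1 + x.c4 * y.c0 + x.c4 * y.c5 + x.c5 * y.c4 + x.c5 * y.c5) * r ^ 4 + ι (x.c0 * y.c5 + x.c1 * y.c4 + x.c2 * y.c3 + x.c3 * y.c2 + x.c4 * y.c1 + x.c5 * y.c0 + x.c5 * y.c5) * r ^ 5 = _
    simp only [map_add, map_mul, f]
    linear_combination -((ι x.c1 * ι y.c5 + ι x.c2 * ι y.c4 + ι x.c3 * ι y.c3 + ι x.c4 * ι y.c2 + ι x.c5 * ι y.c1) * r ^ 0 + (ι x.c2 * ι y.c5 + ι x.c3 * ι y.c4 + ι x.c4 * ι y.c3 + ι x.c5 * ι y.c2) * r ^ 1 + (ι x.c3 * ι y.c5 + ι x.c4 * ι y.c4 + ι x.c5 * ι y.c3) * r ^ 2 + (ι x.c4 * ι y.c5 + ι x.c5 * ι y.c4) * r ^ 3 + (ι x.c5 * ι y.c5) * r ^ 4) * hr6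
  have h1 : f 1 = 1 := by
    show ι 1 + ι 0 * r + ι 0 * r ^ 2 + ι 0 * r ^ 3 + ι 0 * r ^ 4 + ι 0 * r ^ 5 = 1
    simp
  refine ⟨f, ⟨fun x y => ?_, hmul, fun x => ?_, ?_, h1, fun x hx => ?_⟩⟩
  · show ι (x.c0 + y.c0) + ι (x.c1 + y.c1) * r + ι (x.c2 + y.c2) * r ^ 2 + ι (x.c3 + y.c3) * r ^ 3 + ι (x.c4 + y.c4) * r ^ 4 + ι (x.c5 + y.c5) * r ^ 5 = _
    simp only [map_add, f]
    ring
  · show f x = -f x
    rw [CharTwo.neg_eq]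
  · show ι 0 + ι 0 * r + ι 0 * r ^ 2 + ι 0 * r ^ 3 + ι 0 * r ^ 4 + ι 0 * r ^ 5 = 0
    simp
  · rcases q64_inv x.c0 x.c1 x.c2 x.c3 x.c4 x.c5 with h | ⟨a, b, c, d, e, g, h⟩
    · exact h
    · exfalso
      have := congrArg f h
      rw [hmul, hx, zero_mul, h1] at this
      exact zero_ne_one this

variable {F : Type*} [Field F]

/-- Evaluation of a model matrix. -/
def evM (f : Q64 → F) (A : M64) : Matrix (Fin 3) (Fin 3) F :=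
  !![f A.m00, f A.m01, f A.m02; f A.m10, f A.m11, f A.m12; f A.m20, f A.m21, f A.m22]

theorem evM_mul {f : Q64 → F} (h : Emb f) (A B : M64) : evM f (A * B) = evM f A * evM f B := by
  ext i j
  fin_cases i <;> fin_cases j <;> simp [evM, Matrix.mul_apply, Fin.sum_univ_three] <;>
    (show f (_ + _ + _) = _; simp [h.add, h.mul])

theorem exists_eight [Fintype F] {φ : F →+* F} {q : ℕ} (hF : Frob φ q) (hq : q = 8) :
    ∃ u g : SpecialLinearGroup (Fin 3) F, Iso φ u ∧ Iso φ g ∧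
      ((u : Matrix (Fin 3) (Fin 3) F) - 1) ^ 3 = 0 ∧ ((u : Matrix (Fin 3) (Fin 3) F) - 1) ^ 2 ≠ 0 ∧
      ∀ G : Subgroup (SpecialLinearGroup (Fin 3) F), u ∈ G → g * u * g⁻¹ ∈ G →
        ∀ v, H φ v v = 0 → Full φ G v := by
  classical
  subst hq
  have hcard : Fintype.card F = 64 := by rw [← Nat.card_eq_fintype_card, hF.hF.2]; norm_num
  obtain ⟨p, k, hp, hc, hpk⟩ := hF.hF.exists_char
  have hp2 : p = 2 := by
    have h : p ∣ 2 ^ 3 := by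
      rw [show (2 : ℕ) ^ 3 = 8 by norm_num, hpk]
      exact dvd_pow_self p (by rintro rfl; simp at hpk)
    exact (Nat.prime_dvd_prime_iff_eq hp Nat.prime_two).1 (hp.dvd_of_dvd_pow h)
  subst hp2
  have h2 : (2 : F) = 0 := CharTwo.two_eq_zero
  obtain ⟨f, hf⟩ := exists_emb64 hcard
  have hfr : ∀ x, φ (f x) = f (frob8 x) := fun x => by
    rw [hF.hφ, frob8, hf.mul, hf.mul, hf.mul]
    ring
  obtain ⟨c24, c23, fr2, i46, j6, hb, hbb, n24, n24', n23⟩ := facts8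
  set u := upU φ (1 : F) (f ⟨0, 1, 0, 0, 0, 1⟩) with hu
  have hκ : f ⟨0, 1, 0, 0, 0, 0⟩ ≠ 0 := hf.ne (by decide)
  set g := loU φ (f ⟨0, 1, 0, 0, 0, 0⟩) (f ⟨0, 0, 1, 0, 0, 1⟩) * (tor φ (f ⟨0, 1, 0, 0, 0, 0⟩) hκ * wJ) with hg
  have hui : Iso φ u := iso_upU hF.invol (by
    rw [map_one, mul_one, hfr]
    have e := congrArg f hb
    rw [hf.add, hf.add, hf.one, hf.zero] at e
    exact e)
  have hgi : Iso φ g := (iso_loU hF.invol (by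
    rw [hfr, hfr]
    have e := congrArg f hbb
    rw [hf.add, hf.add, hf.mul, hf.zero] at e
    exact e)).mul ((iso_tor hF.invol _ hκ).mul iso_wJ)
  have hum : (u : Matrix (Fin 3) (Fin 3) F) = evM f u8 := by
    rw [hu, val_upU, u8, evM, mU]
    ext i j
    fin_cases i <;> fin_cases j <;> simp [hf.one, hf.zero, CharTwo.neg_eq, frob8, hf.mul]
  have hgm : (g : Matrix (Fin 3) (Fin 3) F) = evM f g8 := by
    have e1 : φ (f ⟨0, 1, 0, 0, 0, 0⟩) = f ⟨0, 0, 1, 1, 0, 0⟩ := by rw [hfr, fr2]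
    have e2 : (φ (f ⟨0, 1, 0, 0, 0, 0⟩))⁻¹ = f ⟨0, 1, 1, 1, 0, 1⟩ := inv_eq_of_mul_eq_one_right (by
      rw [e1, ← hf.mul, i46, hf.one])
    have e3 : φ (f ⟨0, 1, 0, 0, 0, 0⟩) / f ⟨0, 1, 0, 0, 0, 0⟩ = f ⟨0, 1, 1, 0, 0, 0⟩ := by
      rw [div_eq_iff hκ, e1, ← hf.mul, j6]
    rw [hg]
    simp only [val_mul, val_loU, val_tor, val_wJ]
    rw [g8, evM_mul hf, mTJ, evM_mul hf, e2, e3, hfr]
    ext i j
    fin_cases i <;> fin_cases j <;>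
      simp [evM, mL, Matrix.mul_apply, Fin.sum_univ_three, hf.one, hf.zero, CharTwo.neg_eq]
  refine ⟨u, g, hui, hgi, ?_, ?_, fun G hG1 hG2 => ?_⟩
  · simp [hu, val_upU, pow_succ, Matrix.one_fin_three]
    ext i j; fin_cases i <;> fin_cases j <;> simp [Matrix.mul_apply, Fin.sum_univ_three]
  · intro h
    have := congrFun₂ h 0 2
    simp [hu, val_upU, pow_two, Matrix.mul_apply, Fin.sum_univ_three] at this
  set v := g * u * g⁻¹ with hv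
  have hgu : IsUnit (evM f g8) := by
    rw [← hgm]
    exact (Matrix.isUnit_iff_isUnit_det _).2 (isUnit_iff_ne_zero.2 (by rw [g.2]; exact one_ne_zero))
  have hvm : (v : Matrix (Fin 3) (Fin 3) F) = evM f v8 := by
    refine hgu.mul_left_injective ?_
    show _ * evM f g8 = evM f v8 * evM f g8
    rw [← evM_mul hf, ← conj8, evM_mul hf, ← hgm, ← hum, hv, ← val_mul, inv_mul_cancel_right, val_mul]
  let D : Plane φ :=
    { p1 := ![1, 0, 0]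
      p2 := ![0, 0, 1]
      θ := 1
      hφ2 := hF.invol
      h11 := by simp [H_eq]
      h22 := by simp [H_eq]
      h12 := by simp [H_eq]
      hθ := by rw [map_one, CharTwo.neg_eq]
      hθ0 := one_ne_zero }
  have h2' : (2 : F0 φ) = 0 := Subtype.ext h2
  set M := G.comap D.ψ with hM
  have mem : ∀ (A : SpecialLinearGroup (Fin 3) F), (∃ B ∈ G, (B : Matrix (Fin 3) (Fin 3) F) = A) → A ∈ G := by
    rintro A ⟨B, hB, e⟩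
    rwa [show A = B from Subtype.ext e.symm]
  have hup : upp 1 ∈ M := by
    show D.ψ (upp 1) ∈ G
    rw [D.val_ψ_upp _ 1 (val_upp _)]
    refine mem _ ⟨u * u, G.mul_mem hG1 hG1, ?_⟩
    rw [val_T D.h11, val_mul, hum, ← evM_mul hf, usq8]
    ext i j
    fin_cases i <;> fin_cases j <;>
      simp [D, jv, vecMulVec, evM, mU, frob8, hf.one, hf.zero, hf.mul, CharTwo.neg_eq]
  have hc24 : f ⟨0, 0, 0, 1, 1, 0⟩ ∈ F0 φ := by rw [mem_F0, hfr, c24]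
  have hc23 : f ⟨1, 1, 1, 0, 1, 0⟩ ∈ F0 φ := by rw [mem_F0, hfr, c23]
  have hup2 : upp (⟨_, hc24⟩ : F0 φ) ∈ M := by
    show D.ψ (upp _) ∈ G
    rw [D.val_ψ_upp _ _ (val_upp _)]
    refine mem _ ⟨u * (v * v * v) * (u * u * u) * v * u * u * (v * v * v) * (u * u * u) * (u * u * u) * (v * v * v) * u * v,
      ?_, ?_⟩
    · have hU := G.mul_mem (G.mul_mem hG1 hG1) hG1
      have hV := G.mul_mem (G.mul_mem hG2 hG2) hG2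
      exact (G.mul_mem (G.mul_mem (G.mul_mem (G.mul_mem (G.mul_mem (G.mul_mem (G.mul_mem (G.mul_mem (G.mul_mem (G.mul_mem (G.mul_mem hG1 hV) hU) hG2) hG1) hG1) hV) hU) hU) hV) hG1) hG2)
    simp only [val_mul, hum, hvm, ← evM_mul hf]
    have hw := word8
    simp only [vi8, ui8] at hw
    rw [hw, val_T D.h11]
    ext i j
    fin_cases i <;> fin_cases j <;>
      simp [D, jv, vecMulVec, evM, mU, frob8, hf.one, hf.zero, hf.mul, CharTwo.neg_eq]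
  have hlo1 : lo (⟨_, hc23⟩ : F0 φ) ∈ M := by
    show D.ψ (lo _) ∈ G
    rw [D.val_ψ_low _ _ (val_lo _)]
    refine mem _ ⟨v * v, G.mul_mem hG2 hG2, ?_⟩
    rw [val_T D.h22, val_mul, hvm, ← evM_mul hf, vsq8]
    ext i j
    fin_cases i <;> fin_cases j <;>
      simp [D, jv, vecMulVec, evM, mL, frob8, hf.one, hf.zero, hf.mul, CharTwo.neg_eq]
  have hb1 : (⟨_, hc23⟩ : F0 φ) ≠ 0 := fun e => hf.ne n23 (congrArg Subtype.val e)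
  have hc0 : (⟨_, hc24⟩ : F0 φ) ≠ 0 := fun e => hf.ne n24 (congrArg Subtype.val e)
  obtain ⟨d, hd, d00, d10⟩ := exists_swap h2' hb1 M hup hlo1
  haveI : CharP (F0 φ) 2 := CharTwo.of_one_ne_zero_of_two_eq_zero one_ne_zero h2'
  have hlo2 : lo ((⟨_, hc23⟩ : F0 φ) * ⟨_, hc24⟩) ∈ M := by
    have h : lo ((⟨_, hc23⟩ : F0 φ) * ⟨_, hc24⟩) = d * upp ⟨_, hc24⟩ * d⁻¹ := by
      rw [eq_mul_inv_iff_mul_eq, conj_upp d d00, d10, CharTwo.neg_eq]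
    rw [h]
    exact M.mul_mem (M.mul_mem hd hup2) (M.inv_mem hd)
  have hgen : ∀ L : Subfield (F0 φ),
      ((⟨_, hc23⟩ : F0 φ) * ⟨_, hc24⟩) / ⟨_, hc23⟩ ∈ L → L = ⊤ := by
    intro L hL
    rw [mul_div_cancel_left₀ _ hb1] at hL
    by_contra hne
    have hk := RegUnipThree.sq_card_le hne
    rw [hF.card_F0] at hk
    have hL2 : Nat.card L = 2 := by
      have h1 : 1 < Nat.card L := Finite.one_lt_card
      have : Nat.card L < 3 := by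
        by_contra hh
        have := Nat.mul_le_mul (not_lt.1 hh) (not_lt.1 hh)
        omega
      omega
    haveI : Fintype L := Fintype.ofFinite L
    have e := FiniteField.pow_card (⟨_, hL⟩ : L)
    rw [← Nat.card_eq_fintype_card, hL2] at e
    have e' : f ⟨0, 0, 0, 1, 1, 0⟩ ^ 2 = f ⟨0, 0, 0, 1, 1, 0⟩ := congrArg (fun z : L => ((z : F0 φ) : F)) e
    have : f ⟨0, 0, 0, 1, 1, 0⟩ * (f ⟨0, 0, 0, 1, 1, 0⟩ - 1) = 0 := by linear_combination e'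
    rcases mul_eq_zero.1 this with h | h
    · exact hf.ne n24 h
    · refine hf.ne n24' ?_
      rw [hf.add, hf.one, sub_eq_zero.1 h, CharTwo.add_self_eq_zero]
  have htop := eq_top_of_three h2' hb1 (mul_ne_zero hb1 hc0) hgen M hup hlo1 hlo2
  have hall : ∀ A, D.ψ A ∈ G := fun A => by
    have hA : A ∈ M := by rw [htop]; exact Subgroup.mem_top A
    exact hA
  refine D.full_all hall hG1 hui D.h22 (D.full_p2 hall) ?_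
  simp [D, hu, val_upU, det_fin_three, mulVec, dotProduct, Fin.sum_univ_three]

end Cfsg.Agent.Known.SU3
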