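import Cfsg.Agent.Known.SU3Param
import Cfsg.Agent.Known.SU3Eight

/-!
`SU₃(q)`, `q ≥ 3`, is generated by two conjugate regular unipotent elements.
-/

set_option autoImplicit false
set_option maxHeartbeats 1000000

namespace Cfsg.Agent.Known.SU3

open Matrix

variable {F : Type*} [Field F] [Fintype F] {φ : F →+* F} {q : ℕ}

theorem exists_three (hF : Frob φ q) (hq : q = 3) :
    ∃ u g : SpecialLinearGroup (Fin 3) F, Iso φ u ∧ Iso φ g ∧
      ((u : Matrix (Fin 3) (Fin 3) F) - 1) ^ 3 = 0 ∧ ((u : Matrix (Fin 3) (Fin 3) F) - 1) ^ 2 ≠ 0 ∧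
      ∀ G : Subgroup (SpecialLinearGroup (Fin 3) F), u ∈ G → g * u * g⁻¹ ∈ G →
        ∀ v, H φ v v = 0 → Full φ G v := by
  classical
  subst hq
  have hcard : Fintype.card F = 9 := by rw [← Nat.card_eq_fintype_card, hF.hF.2]; norm_num
  obtain ⟨p, k, hp, hc, hpk⟩ := hF.hF.exists_char
  have hp3 : p = 3 := by
    have h : p ∣ 3 := by
      rw [hpk]
      exact dvd_pow_self p (by rintro rfl; simp at hpk)
    exact (Nat.prime_dvd_prime_iff_eq hp Nat.prime_three).1 h
  subst hp3
  haveI := hc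
  have h3 : (3 : F) = 0 := by exact_mod_cast CharP.cast_eq_zero F 3
  have h2 : (2 : F) ≠ 0 := fun e => one_ne_zero (show (1 : F) = 0 by linear_combination h3 - e)
  obtain ⟨i, hi⟩ : IsSquare (-1 : F) := FiniteField.isSquare_neg_one_iff.2 (by rw [hcard]; norm_num)
  have hi0 : i ≠ 0 := by rintro rfl; simp at hi
  have hinv : i⁻¹ = -i := inv_eq_of_mul_eq_one_right (by linear_combination hi)
  have hφi : φ i = i⁻¹ := by rw [hF.hφ, hinv]; linear_combination -i * hi
  refine core hF h2 (l := i) (y := -4) hi0 hφi (by rw [map_neg, map_ofNat]) ?_ ?_ ?_ ?_ ?_ (1 : F0 φ)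
    one_ne_zero ?_ ?_ ?_
  · intro e
    exact one_ne_zero (show (1 : F) = 0 by linear_combination -e - h3)
  · rw [hinv]; ring
  · intro e
    exact h2 (by linear_combination (1 - i) * e - hi)
  · intro e
    rw [hinv] at e
    exact h2 (by linear_combination (1 - i) * (e - hi) - hi)
  · rw [hinv]
    intro e
    exact one_ne_zero (show (1 : F) = 0 by linear_combination -e + h3 - 2 * 0)
  · exact fun L _ => RegUnipThree.subfield_eq_top_of_card_prime (by rw [hF.card_F0]; norm_num) L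
  · rintro ⟨h9, -⟩
    rw [hF.card_F0] at h9
    norm_num at h9
  · intro Q hQ
    rw [hinv] at hQ ⊢
    have h4 : (4 : F) ≠ 0 := by rw [show (4 : F) = 2 * 2 by norm_num]; exact mul_ne_zero h2 h2
    have hQ' : Q = -1 := by
      refine mul_left_cancel₀ h4 ?_
      linear_combination -hQ
    have h16 : (16 : F) ≠ 0 := by rw [show (16 : F) = 4 * 4 by norm_num]; exact mul_ne_zero h4 h4
    have h64 : (64 : F) ≠ 0 := by rw [show (64 : F) = 4 * 16 by norm_num]; exact mul_ne_zero h4 h16
    rw [hQ']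
    field_simp
    push_cast
    linear_combination (-(7 : F) * 64 * 16) * h3

/-- The generation theorem. -/
theorem two_generators (q : ℕ) (hq : 3 ≤ q) (hcard : Fintype.card F = q ^ 2) :
    ∃ u g : ↥(Cfsg.SU 3 F q), (IsNilpotent (((u : SpecialLinearGroup (Fin 3) F) : Matrix (Fin 3) (Fin 3) F) - 1) ∧
      (((u : SpecialLinearGroup (Fin 3) F) : Matrix (Fin 3) (Fin 3) F) - 1) ^ (3 - 1) ≠ 0) ∧
      Subgroup.closure ({u, g * u * g⁻¹} : Set ↥(Cfsg.SU 3 F q)) = ⊤ := by
  classical
  obtain ⟨φ, hF⟩ := exists_frob hcard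
  have key : ∃ u g : SpecialLinearGroup (Fin 3) F, Iso φ u ∧ Iso φ g ∧
      ((u : Matrix (Fin 3) (Fin 3) F) - 1) ^ 3 = 0 ∧ ((u : Matrix (Fin 3) (Fin 3) F) - 1) ^ 2 ≠ 0 ∧
      ∀ G : Subgroup (SpecialLinearGroup (Fin 3) F), u ∈ G → g * u * g⁻¹ ∈ G →
        ∀ v, H φ v v = 0 → Full φ G v := by
    by_cases h2 : (2 : F) = 0
    · by_cases h8 : q = 8
      · exact exists_eight hF h8
      · exact exists_even hF h2 (by omega) h8
    · have hodd : Odd q := by
        have hchar : ringChar F ≠ 2 := fun e => h2 (by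
          haveI : CharP F 2 := ringChar.eq_iff.1 e
          exact CharTwo.two_eq_zero)
        have h : Odd (Fintype.card F) := Nat.odd_iff.2 (FiniteField.odd_card_of_char_ne_two hchar)
        rw [hcard] at h
        exact (Nat.odd_pow_iff two_ne_zero).1 h
      by_cases h3 : q = 3
      · exact exists_three hF h3
      · haveI : Fintype (F0 φ) := Fintype.ofFinite _
        obtain ⟨r, hr⟩ := hodd
        obtain ⟨s, hs⟩ := exists_param (K := F0 φ) (q := q)
          (by rw [← Nat.card_eq_fintype_card]; exact hF.card_F0) ⟨r, hr⟩ (by omega)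
        exact exists_odd hF h2 ⟨r, hr⟩ hs
  obtain ⟨u, g, hu, hg, hn, hr, hfull⟩ := key
  exact finish hF (by omega) hu hg hn hr hfull

end Cfsg.Agent.Known.SU3
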