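import Cfsg.Agent.Known.SU3Model
import Cfsg.Agent.Known.SU3Root
import Cfsg.Agent.Known.SU3OddId

/-!
Two conjugate regular unipotents generate `SU₃(q)`, `q` odd, given a suitable parameter.
-/

set_option autoImplicit false
set_option maxHeartbeats 1000000

namespace Cfsg.Agent.Known.SU3

open Matrix OddId

variable {F : Type*} [Field F]

/-- The product of the two transvection parameters in terms of the parameter `s`. -/
def lamS {K : Type*} [Field K] (s : K) : K :=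
  -4 * s ^ 2 * (s - 2) ^ 2 * (5 * s + 6) / ((s + 2) * (s ^ 2 + 2) ^ 2)

theorem map_lamS {K L : Type*} [Field K] [Field L] (f : K →+* L) (s : K) : f (lamS s) = lamS (f s) := by
  simp [lamS, map_ofNat]

/-- A usable parameter. -/
structure Param (K : Type*) [Field K] [Finite K] (q : ℕ) (s : K) : Prop where
  s0 : s ≠ 0
  sm1 : s + 1 ≠ 0
  d0 : s ^ 2 - 2 ≠ 0
  d2 : s ^ 2 + 2 ≠ 0
  e0 : 5 * s + 6 ≠ 0
  nonsq : (4 - s ^ 2) ^ ((q - 1) / 2) = -1
  gen : ∀ L : Subfield K, lamS s ∈ L → L = ⊤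
  exc : ¬ (Nat.card K = 9 ∧ lamS s ^ 2 = -1)

variable [Fintype F] {φ : F →+* F} {q : ℕ}

/-- The construction from an eigenvalue `l` and a real parameter `y`. -/
theorem core (hF : Frob φ q) (h2 : (2 : F) ≠ 0) {l y : F} (hl0 : l ≠ 0) (hφl : φ l = l⁻¹)
    (hφy : φ y = y) (hy0 : y ≠ 0)
    (hR : y ^ 2 + 8 * y + 16 - 2 * (l + l⁻¹) * (l + l⁻¹ + 2) = 0)
    (h1l : 1 + l ≠ 0) (hlm : l - l⁻¹ ^ 2 ≠ 0) (hx2' : l + l⁻¹ - 2 - y ≠ 0)
    (lam : F0 φ) (hlam' : lam ≠ 0) (hgen : ∀ L : Subfield (F0 φ), lam ∈ L → L = ⊤)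
    (hexc : ¬ (Nat.card (F0 φ) = 9 ∧ lam ^ 2 = -1))
    (hval : ∀ Q : F, Q * ((l + l⁻¹ + 2) * (l + l⁻¹ - 2) * (l + l⁻¹ + 1) ^ 2) = 4 →
      Q * ((l + l⁻¹ + 2) ^ 2 * y ^ 4 / 64 -
        ((l + l⁻¹) ^ 2 - 4) * ((y + 2) ^ 2 - (l + l⁻¹) ^ 2) ^ 2 / 16) = (lam : F)) :
    ∃ u g : SpecialLinearGroup (Fin 3) F, Iso φ u ∧ Iso φ g ∧
      ((u : Matrix (Fin 3) (Fin 3) F) - 1) ^ 3 = 0 ∧ ((u : Matrix (Fin 3) (Fin 3) F) - 1) ^ 2 ≠ 0 ∧
      ∀ G : Subgroup (SpecialLinearGroup (Fin 3) F), u ∈ G → g * u * g⁻¹ ∈ G →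
        ∀ v, H φ v v = 0 → Full φ G v := by
  classical
  have h4 : (4 : F) ≠ 0 := by rw [show (4 : F) = 2 * 2 by norm_num]; exact mul_ne_zero h2 h2
  have hφtwo : φ 2 = 2 := map_ofNat φ 2
  have h8 : (8 : F) ≠ 0 := by rw [show (8 : F) = 2 * 4 by norm_num]; exact mul_ne_zero h2 h4
  have h16 : (16 : F) ≠ 0 := by rw [show (16 : F) = 2 * 8 by norm_num]; exact mul_ne_zero h2 h8
  have h64 : (64 : F) ≠ 0 := by rw [show (64 : F) = 4 * 16 by norm_num]; exact mul_ne_zero h4 h16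
  set T₀ := l + l⁻¹ with hT'
  have hT : l + l⁻¹ = T₀ := hT'.symm
  set m := l⁻¹ ^ 2 with hm
  have hl3 : l ^ 3 - 1 ≠ 0 := fun e => hlm (by
    rw [hm]
    field_simp
    linear_combination e)
  set k := -2 / ((1 + l) * (l - m)) with hk
  have hk0 : k ≠ 0 := div_ne_zero (neg_ne_zero.2 h2) (mul_ne_zero h1l hlm)
  have hφk : φ k = -k := by
    have h1l' : 1 + l⁻¹ ≠ 0 := fun e => h1l (by
      have e' := congrArg (l * ·) e
      simp [mul_add, hl0] at e'
      linear_combination e')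
    have hlm' : l⁻¹ - l ^ 2 ≠ 0 := fun e => hlm (by
      have := congrArg φ e
      rw [map_sub, map_pow, map_inv₀, hφl, inv_inv, map_zero] at this
      exact this)
    rw [hk, hm, map_div₀, map_mul, map_neg, map_ofNat, map_add, map_one, map_sub, map_pow, map_inv₀,
      hφl, inv_inv, ← neg_div, div_eq_div_iff (mul_ne_zero h1l' hlm') (mul_ne_zero h1l (hm ▸ hlm))]
    field_simp
    ring
  -- the generators
  set bp := -(y ^ 2 / 2) - (l - l⁻¹) * (2 - (l + l⁻¹)) with hbp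
  set α := -((l - l⁻¹) * (2 - (l + l⁻¹))) / (2 * y) with hα
  have hφα : φ α = -α := by
    rw [hα, map_div₀, map_neg, map_mul, map_mul, map_sub, map_sub, map_add, map_ofNat, map_inv₀, hφl,
      inv_inv, hφy]
    ring
  have hy1 : y⁻¹ ≠ 0 := inv_ne_zero hy0
  set u := upU φ (1 : F) (-(1 / 2)) with hu
  set L := loU φ α (α ^ 2 / 2) with hL
  set g := L * (tor φ y⁻¹ hy1 * wJ) with hg
  have hui : Iso φ u := iso_upU hF.invol (by
    simp [hφtwo]
    field_simp
    norm_num)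
  have hgi : Iso φ g := (iso_loU hF.invol (by
    rw [map_div₀, map_pow, hφα, map_ofNat]
    field_simp
    ring)).mul ((iso_tor hF.invol _ hy1).mul iso_wJ)
  refine ⟨u, g, hui, hgi, ?_, ?_, fun G hG1 hG2 => ?_⟩
  · simp [hu, val_upU, pow_succ, Matrix.one_fin_three]
    ext i j; fin_cases i <;> fin_cases j <;> simp [Matrix.mul_apply, Fin.sum_univ_three]
  · intro e
    have := congrFun₂ e 0 2
    simp [hu, val_upU, pow_two, Matrix.mul_apply, Fin.sum_univ_three] at this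
  set v := loU φ y bp with hv
  have hgv : g * u * g⁻¹ = v := by
    rw [mul_inv_eq_iff_eq_mul]
    refine Subtype.ext ?_
    rw [hg, hL, hu, hv]
    simp only [val_mul, val_tor, val_wJ, val_upU, val_loU, map_inv₀, hφy, hφα]
    ext i j
    fin_cases i <;> fin_cases j <;>
      simp [Matrix.mul_apply, Fin.sum_univ_three, hφy] <;>
      ((try simp only [hα, hbp]); (try field_simp); (try ring))
  rw [hgv] at hG2
  have hvi : Iso φ v := by
    rw [hv]
    refine iso_loU hF.invol ?_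
    rw [hbp, hφy, map_sub, map_neg, map_div₀, map_pow, hφy, map_mul, map_sub, map_sub, map_add,
      map_ofNat, map_inv₀, hφl, inv_inv]
    field_simp
    ring
  set x := xv l y with hx
  have hjx : jv φ x = jx l y := by
    ext i
    fin_cases i <;> simp [hx, xv, jx, jv, hφl, hφy, hφtwo]
    ring
  have hiso : H φ x x = 0 := by rw [H, hjx]; exact isotropic hl0 h2 hR
  set w := u * v with hw
  have hwv : (w : Matrix (Fin 3) (Fin 3) F) = wM l y := by
    rw [hw, val_mul, hu, hv, val_upU, val_loU, wM, hbp, hφy, map_one]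
  have hwx : (w : Matrix (Fin 3) (Fin 3) F) *ᵥ x = l • x := by rw [hwv]; exact eigen hl0 h2 hR
  set N : Matrix (Fin 3) (Fin 3) F := vecMulVec x (jv φ x) with hN
  have hNN : N * N = 0 := by
    rw [hN, vecMulVec_mul_vecMulVec, show jv φ x ⬝ᵥ x = 0 from hiso]
    ext i j; simp [vecMulVec]
  have hwN : (w : Matrix (Fin 3) (Fin 3) F) * N = l • N := by
    rw [hN, mul_vecMulVec, hwx, smul_vecMulVec]
  have hNw : N * (w : Matrix (Fin 3) (Fin 3) F) = l • N := by
    have e := jv_isometry (hui.mul hvi) x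
    rw [← hw, hwx, jv_smul, hφl] at e
    have : jv φ x ᵥ* (w : Matrix (Fin 3) (Fin 3) F) = l • jv φ x := by
      have e2 := congrArg (fun f => l • (f ᵥ* (w : Matrix (Fin 3) (Fin 3) F))) e
      simp only [vecMul_vecMul, val_inv_mul, vecMul_one, smul_vecMul, smul_smul, mul_inv_cancel₀ hl0,
        one_smul] at e2
      exact e2
    rw [hN, vecMulVec_mul, this, vecMulVec_smul]
  have hW : ((w : Matrix (Fin 3) (Fin 3) F) - l • 1) * ((w : Matrix (Fin 3) (Fin 3) F) - m • 1) =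
      (l * (l - m) * k) • N := by
    have e := rank_one hl0 h2 hR
    rw [← hwv] at e
    have e2 := congrArg (fun A : Matrix (Fin 3) (Fin 3) F => (1 + l)⁻¹ • A) e
    simp only [smul_smul, inv_mul_cancel₀ h1l, one_smul] at e2
    rw [hm, e2, hN, hjx, hk, hm]
    congr 1
    field_simp
  set W : Matrix (Fin 3) (Fin 3) F := (w : Matrix (Fin 3) (Fin 3) F) with hWdef
  set S := W - (l * k) • N with hS
  have hSN : S * N = l • N := by rw [hS, sub_mul, hwN, smul_mul_assoc, hNN, smul_zero, sub_zero]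
  have hSm : (S - l • 1) * (S - m • 1) = 0 := by
    rw [hS, show W - (l * k) • N - l • 1 = (W - l • 1) - (l * k) • N by abel,
      show W - (l * k) • N - m • 1 = (W - m • 1) - (l * k) • N by abel]
    rw [show ∀ a b c : Matrix (Fin 3) (Fin 3) F, (a - c) * (b - c) = a * b - a * c - c * b + c * c from
      fun a b c => by noncomm_ring, hW]
    simp only [sub_mul, mul_sub, smul_mul_assoc, mul_smul_comm, one_mul, mul_one, hwN, hNw, hNN,
      smul_zero, smul_sub]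
    module
  set P := (l - m)⁻¹ • (S - m • 1) with hP
  have hSS : S * S = (l + m) • S - (l * m) • 1 := by
    have e := hSm
    simp only [sub_mul, mul_sub, smul_mul_assoc, mul_smul_comm, one_mul, mul_one, smul_sub] at e
    rw [← sub_eq_zero, ← e]
    module
  have hSP : S * P = l • P := by
    simp only [hP, mul_smul_comm, mul_sub, mul_one, hSS]
    match_scalars <;> field_simp <;> ring
  have hS1 : S = l • P + m • (1 - P) := by
    rw [hP]
    match_scalars <;> field_simp <;> ring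
  have hSpow : ∀ n : ℕ, S ^ n = l ^ n • P + m ^ n • (1 - P) := by
    intro n
    induction n with
    | zero => simp
    | succ n ih =>
      rw [pow_succ', ih]
      simp only [mul_add, mul_smul_comm, mul_sub, mul_one, hSP]
      nth_rewrite 1 [hS1]
      match_scalars <;> ring
  have hw1 : W = S * (1 + k • N) := by
    rw [mul_add, mul_one, mul_smul_comm, hSN, hS, smul_smul, mul_comm k]
    abel
  have hcomm : Commute S (1 + k • N) := by
    show S * (1 + k • N) = (1 + k • N) * S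
    rw [← hw1, add_mul, one_mul, smul_mul_assoc, hS, mul_sub, hNw, mul_smul_comm, hNN, smul_zero,
      sub_zero, smul_smul, mul_comm k]
    abel
  have hNpow : ∀ n : ℕ, (1 + k • N) ^ n = 1 + ((n : F) * k) • N := by
    intro n
    induction n with
    | zero => simp
    | succ n ih =>
      rw [pow_succ, ih]
      simp only [mul_add, add_mul, mul_one, one_mul, smul_mul_assoc, mul_smul_comm, hNN, smul_zero]
      push_cast
      module
  have hlq : l ^ (q + 1) = 1 := by rw [pow_succ, ← hF.hφ, hφl, inv_mul_cancel₀ hl0]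
  have hqF : ((q + 1 : ℕ) : F) = 1 := by
    obtain ⟨p, j, hp, hc, rfl⟩ := hF.hF.exists_char
    have hj : j ≠ 0 := by
      rintro rfl
      exact absurd hF.hq (by simp)
    rw [Nat.cast_add, Nat.cast_pow, CharP.cast_eq_zero F p, zero_pow hj, Nat.cast_one, zero_add]
  have hz : T φ x k ∈ G := by
    convert G.pow_mem (G.mul_mem hG1 hG2) (q + 1) using 1
    refine Subtype.ext ?_
    rw [Matrix.SpecialLinearGroup.coe_pow, val_T hiso, ← hw, ← hWdef, hw1, hcomm.mul_pow, hSpow,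
      hNpow, hlq, hm, ← pow_mul, mul_comm 2, pow_mul, inv_pow, hlq, inv_one, one_pow, hqF]
    simp [hN]
  set x' := (u : Matrix (Fin 3) (Fin 3) F) *ᵥ x with hx'
  have hiso' : H φ x' x' = 0 := by rw [hx', hui, hiso]
  have hz' : T φ x' k ∈ G := by
    rw [hx', ← T_conj hui hiso]
    exact G.mul_mem (G.mul_mem hG1 hz) (G.inv_mem hG1)
  -- the product
  set dd := H φ x x' with hdd
  have hui' : ((u⁻¹ : SpecialLinearGroup (Fin 3) F) : Matrix (Fin 3) (Fin 3) F) =
      !![1, -1, -(1/2); 0, 1, 1; 0, 0, 1] := by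
    have e : u * ⟨!![1, -1, -(1/2); 0, 1, 1; 0, 0, 1], by simp [det_fin_three]⟩ = 1 := by
      refine Subtype.ext ?_
      show u.1 * !![1, -1, -(1/2); 0, 1, 1; 0, 0, 1] = 1
      rw [hu, val_upU]
      ext i j
      fin_cases i <;> fin_cases j <;> simp [Matrix.mul_apply, Fin.sum_univ_three]
      field_simp
      ring
    rw [inv_eq_of_mul_eq_one_right e]
  have hu' : (u : Matrix (Fin 3) (Fin 3) F) = !![1, 1, -(1/2); 0, 1, -1; 0, 0, 1] := by
    rw [hu, val_upU, map_one]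
  have hprod2 : dd * φ dd = (T₀ + 2) ^ 2 * y ^ 4 / 64 - (T₀ ^ 2 - 4) * ((y + 2) ^ 2 - T₀ ^ 2) ^ 2 / 16 := by
    have e1 : φ dd = jx l y ⬝ᵥ (!![1, 1, -(1/2); 0, 1, -1; 0, 0, 1] *ᵥ xv l y) := by
      rw [hdd, H_symm hF.invol, H, hjx, hx', hu', hx]
    have e2 : dd = jx l y ⬝ᵥ (!![1, -1, -(1/2); 0, 1, 1; 0, 0, 1] *ᵥ xv l y) := by
      rw [hdd, H, hx', jv_isometry hui, ← dotProduct_mulVec, hui', hjx, hx]
    rw [mul_comm, e1, e2, norm_pair hl0 h2 hR, hT]
  have hk2 : k ^ 2 * ((T₀ + 2) * (T₀ - 2) * (T₀ + 1) ^ 2) = 4 := by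
    rw [← hT, hk, hm]
    field_simp
    ring
  have hlam : k ^ 2 * (dd * φ dd) = (lam : F) := by
    rw [hprod2]; exact hval _ hk2
  have hlam0 : (lam : F) ≠ 0 := fun e => hlam' (Subtype.ext e)
  have hdd0 : dd ≠ 0 := fun e => hlam0 (by rw [← hlam, e, zero_mul, mul_zero])
  have hφdd : φ dd ≠ 0 := by simpa using hdd0
  set θ := -(k * (dd * φ dd)) with hθ
  have hθ0 : θ ≠ 0 := neg_ne_zero.2 (mul_ne_zero hk0 (mul_ne_zero hdd0 hφdd))
  have hφθ : φ θ = -θ := by rw [hθ, map_neg, map_mul, map_mul, hF.invol, hφk]; ring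
  set δ' := -(θ / φ dd) with hδ'
  let D : Plane φ :=
    { p1 := x
      p2 := δ' • x'
      θ := θ
      hφ2 := hF.invol
      h11 := hiso
      h22 := by rw [H_smul_left, H_smul_right, hiso', mul_zero, mul_zero]
      h12 := by
        rw [H_smul_right, ← hdd, hδ', map_neg, map_div₀, hF.invol, hφθ]
        field_simp
      hθ := hφθ
      hθ0 := hθ0 }
  have h2' : (2 : F) ≠ 0 := h2
  have hlam0' : lam ≠ 0 := hlam'
  have h1 : T φ D.p1 (-(lam : F) / D.θ) ∈ G := by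
    convert hz using 2
    show -(lam : F) / θ = k
    rw [← hlam, hθ]
    field_simp
  have h3 : T φ D.p2 (1 / D.θ) ∈ G := by
    show T φ (δ' • x') (1 / θ) ∈ G
    rw [T_smul hiso']
    convert hz' using 2
    rw [hδ', map_neg, map_div₀, hF.invol, hφθ, hθ]
    field_simp
  have hall := D.all_of_dickson h2' lam hlam0' hgen hexc h1 h3
  refine D.full_all hall hG1 hui D.h22 (D.full_p2 hall) ?_
  have hx2 : x 2 ≠ 0 := hx2'
  have hδ0' : δ' ≠ 0 := neg_ne_zero.2 (div_ne_zero hθ0 hφdd)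
  have hdet : (Matrix.of ![D.p1, D.p2, (u : Matrix (Fin 3) (Fin 3) F) *ᵥ D.p2]).det =
      -(δ' * δ' * x 2 ^ 3) := by
    simp [D, hx', hu', det_fin_three, mulVec, dotProduct, Fin.sum_univ_three]
    ring
  rw [hdet]
  exact neg_ne_zero.2 (mul_ne_zero (mul_ne_zero hδ0' hδ0') (pow_ne_zero 3 hx2))


theorem exists_odd (hF : Frob φ q) (h2 : (2 : F) ≠ 0) (hodd : Odd q) {s₀ : F0 φ}
    (hs : Param (F0 φ) q s₀) :
    ∃ u g : SpecialLinearGroup (Fin 3) F, Iso φ u ∧ Iso φ g ∧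
      ((u : Matrix (Fin 3) (Fin 3) F) - 1) ^ 3 = 0 ∧ ((u : Matrix (Fin 3) (Fin 3) F) - 1) ^ 2 ≠ 0 ∧
      ∀ G : Subgroup (SpecialLinearGroup (Fin 3) F), u ∈ G → g * u * g⁻¹ ∈ G →
        ∀ v, H φ v v = 0 → Full φ G v := by
  classical
  set s : F := (s₀ : F) with hsdef
  have h4 : (4 : F) ≠ 0 := by rw [show (4 : F) = 2 * 2 by norm_num]; exact mul_ne_zero h2 h2
  have s0 : s ≠ 0 := fun e => hs.s0 (Subtype.ext e)
  have sm1 : s + 1 ≠ 0 := fun e => hs.sm1 (Subtype.ext e)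
  have d0 : s ^ 2 - 2 ≠ 0 := fun e => hs.d0 (Subtype.ext e)
  have d2 : s ^ 2 + 2 ≠ 0 := fun e => hs.d2 (Subtype.ext e)
  have e0 : 5 * s + 6 ≠ 0 := fun e => hs.e0 (Subtype.ext e)
  have nonsq : (4 - s ^ 2) ^ ((q - 1) / 2) = -1 := congrArg Subtype.val hs.nonsq
  obtain ⟨h, hh⟩ := hodd
  have hhpos : 0 < h := by have := hF.hq; omega
  have hh2 : (q - 1) / 2 = h := by omega
  rw [hh2] at nonsq
  have hn0 : 4 - s ^ 2 ≠ 0 := fun e => by
    rw [e, zero_pow hhpos.ne'] at nonsq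
    exact one_ne_zero (neg_eq_zero.1 nonsq.symm)
  have hp2 : s + 2 ≠ 0 := fun e => hn0 (by linear_combination (2 - s) * e)
  have hm2 : s - 2 ≠ 0 := fun e => hn0 (by linear_combination -(s + 2) * e)
  -- a square root
  have hsq : IsSquare (4 - s ^ 2) := by
    have hchar : ringChar F ≠ 2 := fun e => h2 (by
      haveI : CharP F 2 := ringChar.eq_iff.1 e
      exact CharTwo.two_eq_zero)
    have hc : Fintype.card F = q ^ 2 := by rw [← Nat.card_eq_fintype_card]; exact hF.hF.2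
    rw [FiniteField.isSquare_iff hchar hn0,
      show Fintype.card F / 2 = h * (q + 1) by
        rw [hc, hh, show (2 * h + 1) ^ 2 = 2 * (h * (2 * h + 1 + 1)) + 1 by ring]; omega,
      pow_mul, nonsq]
    exact Even.neg_one_pow ⟨h + 1, by omega⟩
  obtain ⟨δ, hδ⟩ := hsq
  have hδ0 : δ ≠ 0 := by rintro rfl; exact hn0 (by rw [hδ, mul_zero])
  have hφδ : φ δ = -δ := by
    rw [hF.hφ, hh, pow_succ, pow_mul, sq, ← hδ, nonsq, neg_one_mul]
  have hφs : φ s = s := coe_F0 s₀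
  have hφtwo : φ 2 = 2 := map_ofNat φ 2
  have hφfour : φ 4 = 4 := map_ofNat φ 4
  have h8 : (8 : F) ≠ 0 := by rw [show (8 : F) = 2 * 4 by norm_num]; exact mul_ne_zero h2 h4
  have h16 : (16 : F) ≠ 0 := by rw [show (16 : F) = 2 * 8 by norm_num]; exact mul_ne_zero h2 h8
  have h64 : (64 : F) ≠ 0 := by rw [show (64 : F) = 4 * 16 by norm_num]; exact mul_ne_zero h4 h16
  set T₀ := 4 / (s ^ 2 - 2) with hT₀
  set D₀ := 2 * s * δ / (s ^ 2 - 2) with hD₀
  set l := (T₀ + D₀) / 2 with hl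
  set y := -4 * (s - 2) * (s + 1) / (s ^ 2 - 2) with hy
  have hy0 : y ≠ 0 := div_ne_zero (mul_ne_zero (mul_ne_zero (neg_ne_zero.2 h4) hm2) sm1) d0
  have hφT : φ T₀ = T₀ := by simp [hT₀, hφs, hφtwo, hφfour]
  have hφD : φ D₀ = -D₀ := by simp [hD₀, hφs, hφδ, neg_div, hφtwo]
  have hφy : φ y = y := by simp [hy, hφs, hφtwo, hφfour]
  have hDT : D₀ ^ 2 = T₀ ^ 2 - 4 := by
    rw [hD₀, hT₀]
    field_simp
    linear_combination (-4 * s ^ 2) * hδ
  have hprod : l * ((T₀ - D₀) / 2) = 1 := by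
    rw [hl]
    field_simp
    linear_combination -hDT
  have hl0 : l ≠ 0 := left_ne_zero_of_mul_eq_one hprod
  have hlinv : l⁻¹ = (T₀ - D₀) / 2 := inv_eq_of_mul_eq_one_right hprod
  have hT : l + l⁻¹ = T₀ := by rw [hlinv, hl]; field_simp; ring
  have hD : l - l⁻¹ = D₀ := by rw [hlinv, hl]; field_simp; ring
  have hφl : φ l = l⁻¹ := by rw [hlinv, hl, map_div₀, map_add, hφT, hφD, map_ofNat, sub_eq_add_neg]
  have hT2 : T₀ + 2 = 2 * s ^ 2 / (s ^ 2 - 2) := by rw [hT₀]; field_simp; ring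
  have hTm2 : T₀ - 2 = 2 * (4 - s ^ 2) / (s ^ 2 - 2) := by rw [hT₀]; field_simp; ring
  have hT1 : T₀ + 1 = (s ^ 2 + 2) / (s ^ 2 - 2) := by rw [hT₀]; field_simp; ring
  have hR : y ^ 2 + 8 * y + 16 - 2 * (l + l⁻¹) * (l + l⁻¹ + 2) = 0 := by
    rw [hT, hy, hT₀]
    field_simp
    ring
  have h1l : 1 + l ≠ 0 := by
    intro e
    have e' : l = -1 := by linear_combination e
    have hz : T₀ + 2 = 0 := by rw [← hT, e', inv_neg, inv_one]; ring
    rw [hT2] at hz
    exact div_ne_zero (mul_ne_zero h2 (pow_ne_zero 2 s0)) d0 hz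
  set m := l⁻¹ ^ 2 with hm
  have hlm : l - m ≠ 0 := by
    intro e
    have h3 : l ^ 3 = 1 := by
      have e' : l = l⁻¹ ^ 2 := by linear_combination e
      calc l ^ 3 = l ^ 2 * l := by ring
        _ = l ^ 2 * l⁻¹ ^ 2 := by rw [← e']
        _ = 1 := by field_simp
    have hl1 : (l - 1) * (l ^ 2 + l + 1) = 0 := by linear_combination h3
    rcases mul_eq_zero.1 hl1 with e1 | e1
    · have hz : T₀ - 2 = 0 := by rw [← hT, sub_eq_zero.1 e1, inv_one]; ring
      rw [hTm2] at hz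
      exact div_ne_zero (mul_ne_zero h2 hn0) d0 hz
    · have hz : T₀ + 1 = 0 := by
        rw [← hT]
        field_simp
        linear_combination e1
      rw [hT1] at hz
      exact div_ne_zero d2 d0 hz
  have hl3 : l ^ 3 - 1 ≠ 0 := fun e => hlm (by
    rw [hm]
    field_simp
    linear_combination e)
  have hlam0 : lamS s₀ ≠ 0 :=
    div_ne_zero (mul_ne_zero (mul_ne_zero (mul_ne_zero (neg_ne_zero.2 (fun e => h4 (congrArg Subtype.val e)))
      (pow_ne_zero 2 hs.s0)) (pow_ne_zero 2 (fun e => hm2 (congrArg Subtype.val e)))) hs.e0)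
      (mul_ne_zero (fun e => hp2 (congrArg Subtype.val e)) (pow_ne_zero 2 hs.d2))
  refine core hF h2 hl0 hφl hφy hy0 hR h1l hlm ?_ (lamS s₀) hlam0 hs.gen hs.exc ?_
  · rw [hT, hy, hT₀]
    have : 4 / (s ^ 2 - 2) - 2 - -4 * (s - 2) * (s + 1) / (s ^ 2 - 2) = 2 * s * (s - 2) / (s ^ 2 - 2) := by
      field_simp
      ring
    rw [this]
    exact div_ne_zero (mul_ne_zero (mul_ne_zero h2 s0) hm2) d0
  · intro Q hQ
    rw [hT] at hQ ⊢
    have hne : (T₀ + 2) * (T₀ - 2) * (T₀ + 1) ^ 2 ≠ 0 := by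
      intro e
      rw [e, mul_zero] at hQ
      exact h4 hQ.symm
    rw [show ((lamS s₀ : F0 φ) : F) = lamS s from map_lamS (F0 φ).subtype s₀,
      eq_div_of_mul_eq hne hQ, hT2, hTm2, hT1, hy, hT₀, lamS]
    field_simp
    ring

end Cfsg.Agent.Known.SU3
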