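import Cfsg.Agent.Known.SU3Small
import Cfsg.Agent.Known.RegUnipThree

/-!
A parameter for the generation of `SU₃(q)` exists for every odd `q ≥ 5`.
-/

set_option autoImplicit false
set_option maxHeartbeats 1000000

namespace Cfsg.Agent.Known.SU3

open Polynomial

theorem count_bound {p n U : ℕ} (hp : 3 ≤ p) (hodd : Odd p) (hn : 2 ≤ n)
    (hU : U = ∑ j ∈ Finset.Icc 1 (n / 2), p ^ j)
    (hex : ¬ (n = 2 ∧ p ≤ 11) ∧ ¬ (n = 3 ∧ p = 3) ∧ ¬ (n = 4 ∧ p = 3)) :
    10 * U + 15 < p ^ n := by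
  obtain ⟨e2, e3, e4⟩ := hex
  have hgeo : 2 * U ≤ 3 * p ^ (n / 2) := by
    have key : ∀ m : ℕ, 2 * ∑ j ∈ Finset.Icc 1 m, p ^ j ≤ 3 * p ^ m := by
      intro m
      induction m with
      | zero => simp
      | succ m ih =>
        rw [Finset.sum_Icc_succ_top (by omega), pow_succ]
        nlinarith [Nat.one_le_pow m p (by omega)]
    rw [hU]; exact key _
  obtain ⟨r, hr⟩ := hodd
  rcases Nat.lt_or_ge n 6 with h6 | h6
  · interval_cases n
    · simp at hU
      have : 13 ≤ p := by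
        have := fun h => e2 ⟨rfl, h⟩
        omega
      rw [hU]
      nlinarith
    · simp at hU
      have : 5 ≤ p := by
        have := fun h => e3 ⟨rfl, h⟩
        omega
      have h25 : 25 * p ≤ p ^ 3 := by nlinarith [Nat.mul_le_mul this this]
      rw [hU]
      omega
    · simp [Finset.sum_Icc_succ_top] at hU
      have : 5 ≤ p := by
        have := fun h => e4 ⟨rfl, h⟩
        omega
      have h25 : 25 * p ^ 2 ≤ p ^ 4 := by nlinarith [Nat.mul_le_mul this this]
      have hp2 : 5 * p ≤ p ^ 2 := by nlinarith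
      rw [hU]
      omega
    · simp [Finset.sum_Icc_succ_top] at hU
      have h27 : 27 * p ^ 2 ≤ p ^ 5 := by
        have : 27 ≤ p ^ 3 := le_trans (by norm_num) (Nat.pow_le_pow_left hp 3)
        calc 27 * p ^ 2 ≤ p ^ 3 * p ^ 2 := Nat.mul_le_mul_right _ this
          _ = p ^ 5 := by ring
      have hp2 : 3 * p ≤ p ^ 2 := by nlinarith
      rw [hU]
      omega
  · set R := p ^ (n / 2) with hR
    have hR27 : 27 ≤ R :=
      le_trans (by norm_num) (le_trans (Nat.pow_le_pow_left hp 3) (Nat.pow_le_pow_right (by omega) (by omega)))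
    have hRR : R * R ≤ p ^ n := by
      rw [hR, ← pow_add]; exact Nat.pow_le_pow_right (by omega) (by omega)
    nlinarith

variable {K : Type*} [Field K] [Fintype K]

theorem subfield_pow {p : ℕ} [Fact p.Prime] [CharP K p] {n : ℕ} (hK : Fintype.card K = p ^ n)
    {L : Subfield K} (hL : L ≠ ⊤) {x : K} (hx : x ∈ L) :
    ∃ j ∈ Finset.Icc 1 (n / 2), x ^ p ^ j = x := by
  classical
  haveI : Fintype L := Fintype.ofFinite L
  haveI : CharP L p := charP_of_injective_ringHom L.subtype.injective p |> fun h => by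
    exact (L.subtype.charP_iff L.subtype.injective p).2 inferInstance
  obtain ⟨j, -, hj⟩ := FiniteField.card L p
  have h := RegUnipThree.sq_card_le hL
  rw [Nat.card_eq_fintype_card, Nat.card_eq_fintype_card, hj, hK, ← pow_add] at h
  have hjn := (Nat.pow_le_pow_iff_right (Fact.out : p.Prime).one_lt).1 h
  refine ⟨j, Finset.mem_Icc.2 ⟨j.pos, by omega⟩, ?_⟩
  have e := congrArg Subtype.val (FiniteField.pow_card (⟨x, hx⟩ : L))
  rw [hj] at e
  simpa using e

open scoped _root_.Classical in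
theorem card_nonsq (h2 : (2 : K) ≠ 0) :
    Fintype.card K ≤ 2 * (Finset.univ.filter fun s : K => ¬ IsSquare (4 - s ^ 2)).card + 3 := by
  classical
  set f : K → K := fun m => 4 * m / (1 + m ^ 2) with hf
  set I := Finset.univ.image f with hI
  have h4 : (4 : K) ≠ 0 := by rw [show (4 : K) = 2 * 2 by norm_num]; exact mul_ne_zero h2 h2
  have hcover : ∀ s : K, IsSquare (4 - s ^ 2) → s ∈ I := by
    rintro s ⟨r₀, hr₀⟩
    obtain ⟨r, hr, hr2⟩ : ∃ r, 4 - s ^ 2 = r * r ∧ r + 2 ≠ 0 := by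
      by_cases h : r₀ + 2 = 0
      · refine ⟨-r₀, by rw [hr₀]; ring, fun e => h4 (by linear_combination e + h)⟩
      · exact ⟨r₀, hr₀, h⟩
    refine Finset.mem_image.2 ⟨s / (r + 2), Finset.mem_univ _, ?_⟩
    show 4 * (s / (r + 2)) / (1 + (s / (r + 2)) ^ 2) = s
    have e : 1 + (s / (r + 2)) ^ 2 = 4 / (r + 2) := by
      field_simp
      linear_combination -hr
    rw [e]
    field_simp
  set S3 : Finset K := {f 0, f 1, f (-1)} with hS3
  set I' := I \ S3 with hI'
  set M0 : Finset K := {0, 1, -1} with hM0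
  have hM0card : M0.card = 3 := by
    rw [hM0, Finset.card_eq_three]
    exact ⟨0, 1, -1, zero_ne_one, (neg_ne_zero.2 one_ne_zero).symm,
      fun e => h2 (by linear_combination e), rfl⟩
  have hmaps : (Finset.univ.filter fun m => f m ∈ I') ⊆ Finset.univ \ M0 := by
    intro m hm
    simp only [Finset.mem_filter, hI', Finset.mem_sdiff, hS3, Finset.mem_insert, Finset.mem_singleton] at hm
    simp only [Finset.mem_sdiff, Finset.mem_univ, true_and, hM0, Finset.mem_insert, Finset.mem_singleton]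
    rintro (rfl | rfl | rfl) <;> simp at hm
  have h2I : I'.card * 2 ≤ (Finset.univ.filter fun m => f m ∈ I').card := by
    rw [mul_comm]
    refine Finset.mul_card_image_le_card_of_maps_to (f := f) (fun m hm => (Finset.mem_filter.1 hm).2) 2 fun z hz => ?_
    obtain ⟨m, -, rfl⟩ := Finset.mem_image.1 (Finset.mem_sdiff.1 hz).1
    have hm : m ≠ 0 ∧ m ≠ 1 ∧ m ≠ -1 := by
      have := (Finset.mem_sdiff.1 hz).2
      simp only [hS3, Finset.mem_insert, Finset.mem_singleton, not_or] at this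
      exact ⟨fun e => this.1 (by rw [e]), fun e => this.2.1 (by rw [e]), fun e => this.2.2 (by rw [e])⟩
    have hfm : f m⁻¹ = f m := by
      show 4 * m⁻¹ / (1 + m⁻¹ ^ 2) = 4 * m / (1 + m ^ 2)
      rcases eq_or_ne (1 + m ^ 2) 0 with h | h
      · have : 1 + m⁻¹ ^ 2 = 0 := by
          field_simp [hm.1]
          linear_combination h
        rw [h, this, div_zero, div_zero]
      · have h' : 1 + m⁻¹ ^ 2 ≠ 0 := fun e => h (by
          field_simp [hm.1] at e
          linear_combination e)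
        rw [div_eq_div_iff h' h]
        field_simp [hm.1]
        ring
    have hne : m⁻¹ ≠ m := fun e => by
      have h1 : m * m = 1 * 1 := by
        nth_rewrite 1 [← e]
        rw [inv_mul_cancel₀ hm.1, one_mul]
      rcases mul_self_eq_mul_self_iff.1 h1 with h | h
      · exact hm.2.1 h
      · exact hm.2.2 h
    rw [← Finset.card_pair hne]
    refine Finset.card_le_card fun z' hz' => ?_
    simp only [Finset.mem_filter, Finset.mem_univ, true_and]
    rcases Finset.mem_insert.1 hz' with rfl | h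
    · exact ⟨by rw [hfm]; exact hz, hfm⟩
    · rw [Finset.mem_singleton.1 h]; exact ⟨hz, rfl⟩
  have hsd : (Finset.univ \ M0).card = Fintype.card K - 3 := by
    rw [Finset.card_sdiff_of_subset (Finset.subset_univ _), Finset.card_univ, hM0card]
  have hI3 : I.card ≤ I'.card + 3 := by
    refine (Finset.card_le_card_sdiff_add_card (t := S3)).trans (Nat.add_le_add_left ?_ _)
    exact Finset.card_le_three
  have hle := (h2I.trans (Finset.card_le_card hmaps)).trans_eq hsd
  have hsplit := Finset.card_filter_add_card_filter_not (s := (Finset.univ : Finset K))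
    (fun s => IsSquare (4 - s ^ 2))
  have hsq : (Finset.univ.filter fun s : K => IsSquare (4 - s ^ 2)).card ≤ I.card :=
    Finset.card_le_card fun s hs => hcover s (Finset.mem_filter.1 hs).2
  have h3 : 3 ≤ Fintype.card K := by rw [← hM0card]; exact Finset.card_le_univ _
  rw [Finset.card_univ] at hsplit
  omega

theorem roots_le (P : K[X]) (hP : P ≠ 0) (S : Finset K) (hS : ∀ x ∈ S, P.eval x = 0) :
    S.card ≤ P.natDegree := by
  classical
  exact le_trans (Finset.card_le_card (t := P.roots.toFinset) fun x hx =>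
    Multiset.mem_toFinset.2 ((mem_roots hP).2 (hS x hx)))
    (le_trans (Multiset.toFinset_card_le _) (card_roots' P))

theorem param_of_count {p n : ℕ} [Fact p.Prime] [CharP K p] (hp : 3 ≤ p) (hn : 1 ≤ n)
    (hK : Fintype.card K = p ^ n)
    (hcount : 10 * (∑ j ∈ Finset.Icc 1 (n / 2), p ^ j) + 15 < p ^ n) :
    ∃ s : K, Param K (p ^ n) s := by
  classical
  have h2 : (2 : K) ≠ 0 := by
    intro e
    have := (CharP.cast_eq_zero_iff K p 2).1 (by exact_mod_cast e)
    have := Nat.le_of_dvd (by norm_num) this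
    omega
  set U : Finset K := (Finset.Icc 1 (n / 2)).biUnion
    (fun j => (X ^ p ^ j - X : K[X]).roots.toFinset) with hU
  have hUcard : U.card ≤ ∑ j ∈ Finset.Icc 1 (n / 2), p ^ j := by
    refine le_trans Finset.card_biUnion_le (Finset.sum_le_sum fun j _ => ?_)
    refine le_trans (Multiset.toFinset_card_le _) (le_trans (card_roots' _) ?_)
    refine le_trans (natDegree_sub_le _ _) ?_
    rw [natDegree_X_pow, natDegree_X]
    exact max_le le_rfl (Nat.one_le_pow _ _ (by omega))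
  set NS := Finset.univ.filter fun s : K => ¬ IsSquare (4 - s ^ 2) with hNS
  have hNScard : Fintype.card K ≤ 2 * NS.card + 3 := by convert card_nonsq (K := K) h2
  have hNSne : ∀ s ∈ NS, s + 2 ≠ 0 ∧ s - 2 ≠ 0 ∧ s ≠ 0 := by
    intro s hs
    have hns := (Finset.mem_filter.1 hs).2
    refine ⟨fun e => hns ?_, fun e => hns ?_, fun e => hns ?_⟩
    · exact ⟨0, by linear_combination (2 - s) * e⟩
    · exact ⟨0, by linear_combination -(s + 2) * e⟩
    · exact ⟨2, by rw [e]; norm_num⟩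
  set good : K → Prop := fun s => s + 1 ≠ 0 ∧ s ^ 2 - 2 ≠ 0 ∧ s ^ 2 + 2 ≠ 0 ∧ 5 * s + 6 ≠ 0 with hgood
  have hD1 : (NS.filter fun s => s + 1 = 0).card ≤ 1 :=
    Finset.card_le_one.2 fun a ha b hb => by
      linear_combination (Finset.mem_filter.1 ha).2 - (Finset.mem_filter.1 hb).2
  have hD2 : (NS.filter fun s => s ^ 2 - 2 = 0).card ≤ 2 := by
    refine le_trans (roots_le (X ^ 2 - C 2) ?_ _ fun x hx => ?_) (by rw [natDegree_X_pow_sub_C])
    · exact (monic_X_pow_sub_C _ (by norm_num)).ne_zero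
    · simpa using (Finset.mem_filter.1 hx).2
  have hD3 : (NS.filter fun s => s ^ 2 + 2 = 0).card ≤ 2 := by
    refine le_trans (roots_le (X ^ 2 + C 2) ?_ _ fun x hx => ?_) (by rw [natDegree_X_pow_add_C])
    · exact (monic_X_pow_add_C _ (by norm_num)).ne_zero
    · simpa using (Finset.mem_filter.1 hx).2
  have hD4 : (NS.filter fun s => 5 * s + 6 = 0).card ≤ 1 := by
    refine Finset.card_le_one.2 fun a ha b hb => ?_
    by_cases h5 : (5 : K) = 0
    · have e := (Finset.mem_filter.1 ha).2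
      rw [h5, zero_mul, zero_add] at e
      exact absurd (show (1 : K) = 0 by linear_combination e - h5) one_ne_zero
    · refine mul_left_cancel₀ h5 ?_
      linear_combination (Finset.mem_filter.1 ha).2 - (Finset.mem_filter.1 hb).2
  have hD5 : (NS.filter fun s => s ^ 2 + 2 ≠ 0 ∧ lamS s ∈ U).card ≤ 5 * U.card := by
    have hsub : (NS.filter fun s => s ^ 2 + 2 ≠ 0 ∧ lamS s ∈ U) ⊆
        U.biUnion fun r => NS.filter fun s => s ^ 2 + 2 ≠ 0 ∧ lamS s = r := by
      intro s hs
      simp only [Finset.mem_filter, Finset.mem_biUnion] at hs ⊢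
      exact ⟨lamS s, hs.2.2, hs.1, hs.2.1, rfl⟩
    refine le_trans (Finset.card_le_card hsub) (le_trans Finset.card_biUnion_le ?_)
    rw [mul_comm, ← smul_eq_mul, ← Finset.sum_const]
    refine Finset.sum_le_sum fun r _ => ?_
    set P : K[X] := C (-4) * X ^ 2 * (X - C 2) ^ 2 * (C 5 * X + C 6) -
      C r * ((X + C 2) * (X ^ 2 + C 2) ^ 2) with hP
    have hP0 : P ≠ 0 := by
      intro e
      have e' := congrArg (Polynomial.eval (-2 : K)) e
      rw [hP] at e'
      simp only [eval_sub, eval_mul, eval_pow, eval_add, eval_X, eval_C, eval_zero] at e'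
      refine (pow_ne_zero 10 h2) ?_
      linear_combination e'
    refine le_trans (roots_le P hP0 _ fun x hx => ?_) ?_
    · obtain ⟨hxNS, hx2, hxr⟩ := Finset.mem_filter.1 hx
      rw [lamS, div_eq_iff (mul_ne_zero (hNSne x hxNS).1 (pow_ne_zero 2 hx2))] at hxr
      simp [hP]
      linear_combination hxr
    · rw [hP]
      compute_degree
  obtain ⟨s, hsNS, hgd, hsU⟩ : ∃ s ∈ NS, good s ∧ lamS s ∉ U := by
    by_contra hno
    push Not at hno
    have hsub : NS ⊆ (NS.filter fun s => s + 1 = 0) ∪ (NS.filter fun s => s ^ 2 - 2 = 0) ∪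
        (NS.filter fun s => s ^ 2 + 2 = 0) ∪ (NS.filter fun s => 5 * s + 6 = 0) ∪
        (NS.filter fun s => s ^ 2 + 2 ≠ 0 ∧ lamS s ∈ U) := by
      intro s hs
      have hg := hno s hs
      simp only [Finset.mem_union, Finset.mem_filter, hs, true_and]
      by_cases a : s + 1 = 0
      · tauto
      by_cases b : s ^ 2 - 2 = 0
      · tauto
      by_cases c : s ^ 2 + 2 = 0
      · tauto
      by_cases d : 5 * s + 6 = 0
      · tauto
      exact Or.inr ⟨c, hg ⟨a, b, c, d⟩⟩
    have := (Finset.card_le_card hsub).trans (le_trans (Finset.card_union_le _ _)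
      (Nat.add_le_add (le_trans (Finset.card_union_le _ _) (Nat.add_le_add (le_trans (Finset.card_union_le _ _)
        (Nat.add_le_add (le_trans (Finset.card_union_le _ _) (Nat.add_le_add hD1 hD2)) hD3)) hD4)) hD5))
    rw [hK] at hNScard
    omega
  obtain ⟨g1, g2, g3, g4⟩ := hgd
  obtain ⟨hp2, hm2, hs0⟩ := hNSne s hsNS
  have hns := (Finset.mem_filter.1 hsNS).2
  have hn0 : 4 - s ^ 2 ≠ 0 := fun e => hns ⟨0, by rw [e]; ring⟩
  have hchar : ringChar K ≠ 2 := fun e => h2 (by
    haveI : CharP K 2 := ringChar.eq_iff.1 e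
    exact CharTwo.two_eq_zero)
  refine ⟨s, ⟨hs0, g1, g2, g3, g4, ?_, fun L hL => ?_, fun e => ?_⟩⟩
  · rcases FiniteField.pow_dichotomy hchar hn0 with h | h
    · exact absurd ((FiniteField.isSquare_iff hchar hn0).2 h) hns
    · rw [show (p ^ n - 1) / 2 = Fintype.card K / 2 by
        rw [hK]
        obtain ⟨j, hj⟩ := Nat.odd_iff.2 (FiniteField.odd_card_of_char_ne_two hchar)
        rw [hK] at hj
        omega]
      exact h
  · by_contra hne
    obtain ⟨j, hj, hx⟩ := subfield_pow hK hne hL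
    refine hsU (Finset.mem_biUnion.2 ⟨j, hj, ?_⟩)
    rw [Multiset.mem_toFinset, mem_roots (FiniteField.X_pow_card_pow_sub_X_ne_zero K (by
      have := (Finset.mem_Icc.1 hj).1; omega) (by omega))]
    simp [hx]
  · have h9 := e.1
    rw [Nat.card_eq_fintype_card, hK] at h9
    have hp3 : p = 3 := by
      have h3 : p ∣ 3 * 3 := by
        have := dvd_pow_self p (show n ≠ 0 by omega)
        rwa [h9] at this
      rcases (Nat.Prime.dvd_mul (Fact.out)).1 h3 with h | h <;>
        exact (Nat.prime_dvd_prime_iff_eq Fact.out Nat.prime_three).1 h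
    subst hp3
    have : n = 2 := Nat.pow_right_injective (show 2 ≤ 3 by norm_num) (by simpa using h9)
    subst this
    simp at hcount

/-! ### Certificates in the models -/

theorem cert5 : Cert (1 : ZMod 5) 5 0 := by unfold Cert; decide +kernel
theorem cert7 : Cert (1 : ZMod 7) 7 0 := by unfold Cert; decide +kernel
theorem cert11 : Cert (4 : ZMod 11) 11 0 := by unfold Cert; decide +kernel
theorem cert13 : Cert (3 : ZMod 13) 13 0 := by unfold Cert; decide +kernel
theorem disc9 : npow' ((0 : ZMod 3) * 0 + nat' 4 * (2 : ZMod 3)) ((3 ^ 2 - 1) / 2) + -1 = 0 := by decide +kernel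
theorem noroot9 : ∀ x : ZMod 3, x * x + -(0 * x + (2 : ZMod 3)) ≠ 0 := by decide +kernel
theorem cert9 : Cert (⟨1, 1⟩ : Q2 (0 : ZMod 3) (2 : ZMod 3)) (3 ^ 2) 3 := by unfold Cert; decide +kernel
theorem disc25 : npow' ((0 : ZMod 5) * 0 + nat' 4 * (2 : ZMod 5)) ((5 ^ 2 - 1) / 2) + -1 = 0 := by decide +kernel
theorem noroot25 : ∀ x : ZMod 5, x * x + -(0 * x + (2 : ZMod 5)) ≠ 0 := by decide +kernel
theorem cert25 : Cert (⟨1, 1⟩ : Q2 (0 : ZMod 5) (2 : ZMod 5)) (5 ^ 2) 5 := by unfold Cert; decide +kernel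
theorem disc49 : npow' ((0 : ZMod 7) * 0 + nat' 4 * (3 : ZMod 7)) ((7 ^ 2 - 1) / 2) + -1 = 0 := by decide +kernel
theorem noroot49 : ∀ x : ZMod 7, x * x + -(0 * x + (3 : ZMod 7)) ≠ 0 := by decide +kernel
theorem cert49 : Cert (⟨1, 2⟩ : Q2 (0 : ZMod 7) (3 : ZMod 7)) (7 ^ 2) 7 := by unfold Cert; decide +kernel
theorem disc121 : npow' ((0 : ZMod 11) * 0 + nat' 4 * (2 : ZMod 11)) ((11 ^ 2 - 1) / 2) + -1 = 0 := by decide +kernel
theorem noroot121 : ∀ x : ZMod 11, x * x + -(0 * x + (2 : ZMod 11)) ≠ 0 := by decide +kernel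
theorem cert121 : Cert (⟨1, 3⟩ : Q2 (0 : ZMod 11) (2 : ZMod 11)) (11 ^ 2) 11 := by unfold Cert; decide +kernel
theorem cert27 : Cert (⟨0, 1, 0⟩ : Q27) (3 ^ 3) 3 := by unfold Cert; decide +kernel
theorem disc81' : npow' ((0 : ZMod 3) * 0 + nat' 4 * 2) ((3 ^ 4 - 1) / 2) + -1 = 0 := by decide +kernel
theorem inv81 : ∀ a b : ZMod 3, (⟨a, b⟩ : Q2 (0 : ZMod 3) 2) ≠ 0 →
    ∃ c d : ZMod 3, (⟨a, b⟩ : Q2 (0 : ZMod 3) 2) * ⟨c, d⟩ = 1 := by decide +kernel
theorem noroot81 : ∀ a b : ZMod 3,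
    (⟨a, b⟩ : Q2 (0 : ZMod 3) 2) * ⟨a, b⟩ + -(0 * ⟨a, b⟩ + ⟨1, 1⟩) ≠ 0 := by decide +kernel
theorem disc81 : npow' ((0 : Q2 (0 : ZMod 3) 2) * 0 + nat' 4 * ⟨1, 1⟩) ((3 ^ 4 - 1) / 2) + -1 = 0 := by
  decide +kernel
theorem cert81 : Cert (⟨⟨0, 1⟩, ⟨0, 1⟩⟩ : Q2 (0 : Q2 (0 : ZMod 3) 2) ⟨1, 1⟩) (3 ^ 4) (3 ^ 2) := by
  unfold Cert; decide +kernel

theorem exists_param {q : ℕ} (hK : Fintype.card K = q) (hodd : Odd q) (h5 : 5 ≤ q) :
    ∃ s : K, Param K q s := by
  classical
  obtain ⟨p, hc, n, hpr, hn⟩ := FiniteField.card' K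
  haveI := hc
  haveI : Fact p.Prime := ⟨hpr⟩
  rw [hK] at hn
  have hp2 : p ≠ 2 := by
    rintro rfl
    rw [hn, Nat.odd_pow_iff n.pos.ne'] at hodd
    exact absurd hodd (by decide)
  have hp : 3 ≤ p := by have := hpr.two_le; omega
  have hpodd : Odd p := hpr.odd_of_ne_two hp2
  have h2 : (2 : K) ≠ 0 := by
    intro e
    have := (CharP.cast_eq_zero_iff K p 2).1 (by exact_mod_cast e)
    have := Nat.le_of_dvd (by norm_num) this
    omega
  subst hn
  have hN : Nat.card K = p ^ (n : ℕ) := by rw [Nat.card_eq_fintype_card, hK]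
  have hsub : ∀ m : ℕ, (∀ j ∈ Finset.Icc 1 ((n : ℕ) / 2), j ∣ m) →
      ∀ L : Subfield K, L ≠ ⊤ → ∀ x ∈ L, x ^ p ^ m = x := by
    intro m hm L hL x hx
    obtain ⟨j, hj, e⟩ := subfield_pow hK hL hx
    obtain ⟨t, rfl⟩ := hm j hj
    clear hm
    induction t with
    | zero => simp
    | succ t ih => rw [Nat.mul_succ, pow_add, pow_mul, ih, e]
  by_cases h1 : (n : ℕ) = 1
  · rw [h1, pow_one] at h5 hN hK ⊢
    have hL : ∀ L : Subfield K, L = ⊤ := fun L =>
      RegUnipThree.subfield_eq_top_of_card_prime (by rw [hN]; exact hpr) L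
    rcases Nat.lt_or_ge p 16 with hlt | hge
    · have hz := emb_zmod (K := K) p
      have key : ∀ s : ZMod p, Cert s p 0 → ∃ s : K, Param K p s := fun s hs =>
        ⟨_, param_of_cert hz hN (fun L hne => absurd (hL L) hne) hs⟩
      interval_cases p
      all_goals first
        | exact key _ cert5
        | exact key _ cert7
        | exact key _ cert11
        | exact key _ cert13
        | exact absurd hpr (by norm_num)
    · have := param_of_count (n := 1) (p := p) hp le_rfl (by rw [pow_one]; exact hK) (by simp; omega)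
      rwa [pow_one] at this
  have hn2 : 2 ≤ (n : ℕ) := by have := n.pos; omega
  by_cases hsmall : ((n : ℕ) = 2 ∧ p ≤ 11) ∨ ((n : ℕ) = 3 ∧ p = 3) ∨ ((n : ℕ) = 4 ∧ p = 3)
  swap
  · push Not at hsmall
    exact param_of_count hp n.pos hK (count_bound hp hpodd hn2 rfl
      ⟨fun h => absurd h.2 (not_le.2 (hsmall.1 h.1)), fun h => hsmall.2.1 h.1 h.2, fun h => hsmall.2.2 h.1 h.2⟩)
  have hz := emb_zmod (K := K) p
  rcases hsmall with ⟨e, hle⟩ | ⟨e, rfl⟩ | ⟨e, rfl⟩ <;> rw [e] at hK hN hsub ⊢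
  · have hc := hsub 1 (fun j hj => by have := Finset.mem_Icc.1 hj; exact Nat.dvd_one.2 (by omega))
    have key : ∀ β : ZMod p, (∃ r : K, Emb (evQ2 (α := (0 : ZMod p)) (β := β)
        (fun x => ZMod.castHom (dvd_refl p) K x) r)) → (∃ s : Q2 (0 : ZMod p) β, Cert s (p ^ 2) p) →
        ∃ s : K, Param K (p ^ 2) s := by
      rintro β ⟨r, hr⟩ ⟨s, hs⟩
      exact ⟨_, param_of_cert hr hN (fun L hne x hx => by simpa using hc L hne x hx) hs⟩
    have hinv : ∀ x : ZMod p, x ≠ 0 → ∃ y, x * y = 1 := fun x hx => ⟨x⁻¹, mul_inv_cancel₀ hx⟩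
    have hp' : p = 3 ∨ p = 5 ∨ p = 7 ∨ p = 11 := by
      interval_cases p
      all_goals first
        | exact Or.inl rfl
        | exact Or.inr (Or.inl rfl)
        | exact Or.inr (Or.inr (Or.inl rfl))
        | exact Or.inr (Or.inr (Or.inr rfl))
        | exact absurd hpr (by norm_num)
    rcases hp' with rfl | rfl | rfl | rfl
    · exact key 2 (exists_quad hz h2 (by rw [hK]; exact disc9) noroot9 hinv)
        ⟨_, cert9⟩
    · exact key 2 (exists_quad hz h2 (by rw [hK]; exact disc25) noroot25 hinv)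
        ⟨_, cert25⟩
    · exact key 3 (exists_quad hz h2 (by rw [hK]; exact disc49) noroot49 hinv)
        ⟨_, cert49⟩
    · exact key 2 (exists_quad hz h2 (by rw [hK]; exact disc121) noroot121 hinv)
        ⟨_, cert121⟩
  · have hc := hsub 1 (fun j hj => by have := Finset.mem_Icc.1 hj; exact Nat.dvd_one.2 (by omega))
    obtain ⟨f, hf⟩ := exists_emb27 (K := K) (by rw [hK]; norm_num)
    exact ⟨_, param_of_cert hf hN (fun L hne x hx => by simpa using hc L hne x hx)
      cert27⟩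
  · have hc := hsub 2 (fun j hj => by
      have := Finset.mem_Icc.1 hj
      rcases (show j = 1 ∨ j = 2 by omega) with rfl | rfl
      · exact one_dvd 2
      · exact dvd_rfl)
    have hinv : ∀ x : ZMod 3, x ≠ 0 → ∃ y, x * y = 1 := fun x hx => ⟨x⁻¹, mul_inv_cancel₀ hx⟩
    obtain ⟨r, hr⟩ := exists_quad (α := (0 : ZMod 3)) (β := 2) hz h2 (by rw [hK]; exact disc81')
      noroot9 hinv
    have hinv9 : ∀ x : Q2 (0 : ZMod 3) 2, x ≠ 0 → ∃ y, x * y = 1 := by
      intro x hx
      obtain ⟨c, d, e⟩ := inv81 x.a x.b hx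
      exact ⟨_, e⟩
    obtain ⟨r', hr'⟩ := exists_quad (α := (0 : Q2 (0 : ZMod 3) 2)) (β := ⟨1, 1⟩) hr h2
      (by rw [hK]; exact disc81) (fun x => noroot81 x.a x.b) hinv9
    exact ⟨_, param_of_cert hr' hN hc cert81⟩

end Cfsg.Agent.Known.SU3
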