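import Cfsg.Agent.Known.SU3Odd

/-!
Parameters for the generation of `SU₃(q)` over small fields, found in explicit models.
-/

set_option autoImplicit false
set_option maxHeartbeats 1000000

namespace Cfsg.Agent.Known.SU3

variable {K : Type*} [Field K]

/-- `n` copies of one. -/
def nat' {R : Type*} [Add R] [Zero R] [One R] : ℕ → R
  | 0 => 0
  | n + 1 => nat' n + 1

/-- Iterated product. -/
def npow' {R : Type*} [Mul R] [One R] (x : R) : ℕ → R
  | 0 => 1
  | n + 1 => npow' x n * x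

/-- An operation preserving map with trivial kernel. -/
structure Emb {R : Type*} [Add R] [Mul R] [Neg R] [Zero R] [One R] (ι : R → K) : Prop where
  add : ∀ x y, ι (x + y) = ι x + ι y
  mul : ∀ x y, ι (x * y) = ι x * ι y
  neg : ∀ x, ι (-x) = -ι x
  zero : ι 0 = 0
  one : ι 1 = 1
  inj : ∀ x, ι x = 0 → x = 0

section

variable {R : Type*} [Add R] [Mul R] [Neg R] [Zero R] [One R] {ι : R → K}

theorem Emb.map_nat (h : Emb ι) (n : ℕ) : ι (nat' n) = n := by
  induction n with
  | zero => simp [nat', h.zero]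
  | succ n ih => simp [nat', h.add, h.one, ih]

theorem Emb.map_pow (h : Emb ι) (x : R) (n : ℕ) : ι (npow' x n) = ι x ^ n := by
  induction n with
  | zero => simp [npow', h.one]
  | succ n ih => simp [npow', h.mul, ih, pow_succ]

theorem Emb.ne (h : Emb ι) {x : R} (hx : x ≠ 0) : ι x ≠ 0 := fun e => hx (h.inj x e)

/-- numerator of `lamS` -/
def lamNum (s : R) : R :=
  -(nat' 4) * (s * s) * ((s + -(nat' 2)) * (s + -(nat' 2))) * (nat' 5 * s + nat' 6)

/-- denominator of `lamS` -/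
def lamDen (s : R) : R := (s + nat' 2) * ((s * s + nat' 2) * (s * s + nat' 2))

/-- The conditions on a parameter, in a model. -/
def Cert (s : R) (q c : ℕ) : Prop :=
  s ≠ 0 ∧ s + 1 ≠ 0 ∧ s * s + -(nat' 2) ≠ 0 ∧ s * s + nat' 2 ≠ 0 ∧ nat' 5 * s + nat' 6 ≠ 0 ∧
    lamDen s ≠ 0 ∧ npow' (nat' 4 + -(s * s)) ((q - 1) / 2) + 1 = 0 ∧
    npow' (lamNum s) c * lamDen s + -(lamNum s * npow' (lamDen s) c) ≠ 0 ∧
    (q = 9 → lamNum s * lamNum s + lamDen s * lamDen s ≠ 0)

theorem Emb.map_lamS (h : Emb ι) {s : R} : lamS (ι s) = ι (lamNum s) / ι (lamDen s) := by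
  simp [lamS, lamNum, lamDen, h.mul, h.add, h.neg, h.map_nat]
  ring

theorem param_of_cert [Finite K] (h : Emb ι) {s : R} {q c : ℕ} (hq : Nat.card K = q)
    (hc : ∀ L : Subfield K, L ≠ ⊤ → ∀ x ∈ L, x ^ c = x) (hs : Cert s q c) :
    Param K q (ι s) := by
  obtain ⟨a1, a2, a3, a4, a5, a6, a7, a8, a9⟩ := hs
  have b2 := h.ne a2
  have b3 := h.ne a3
  have b4 := h.ne a4
  have b5 := h.ne a5
  have b7 := congrArg ι a7
  have hd := h.ne a6
  rw [h.add, h.one] at b2
  rw [h.add, h.mul, h.neg, h.map_nat, ← sq] at b3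
  rw [h.add, h.mul, h.map_nat, ← sq] at b4
  rw [h.add, h.mul, h.map_nat, h.map_nat] at b5
  rw [h.add, h.map_pow, h.add, h.neg, h.mul, h.map_nat, h.one, h.zero, ← sq] at b7
  push_cast at b3 b4 b5 b7
  refine ⟨h.ne a1, b2, by rwa [sub_eq_add_neg], b4, b5,
    by rw [sub_eq_add_neg]; linear_combination b7, fun L hL => ?_, fun e => ?_⟩
  · by_contra hne
    have e := hc L hne _ hL
    rw [h.map_lamS, div_pow, div_eq_div_iff (pow_ne_zero _ hd) hd] at e
    refine h.ne a8 ?_
    rw [h.add, h.mul, h.neg, h.mul, h.map_pow, h.map_pow]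
    linear_combination e
  · obtain ⟨e9, e2⟩ := e
    refine h.ne (a9 (hq ▸ e9)) ?_
    rw [h.map_lamS, div_pow, div_eq_iff (pow_ne_zero _ hd)] at e2
    rw [h.add, h.mul, h.mul]
    linear_combination e2

end

theorem emb_zmod (p : ℕ) [CharP K p] :
    Emb (R := ZMod p) (fun x => ZMod.castHom (dvd_refl p) K x) where
  add := map_add _
  mul := map_mul _
  neg := map_neg _
  zero := map_zero _
  one := map_one _
  inj x hx := ZMod.castHom_injective K (hx.trans (map_zero _).symm)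

/-- `R[X]/(X² - αX - β)`. -/
structure Q2 {R : Type*} (α β : R) where
  /-- constant -/
  a : R
  /-- linear -/
  b : R
  deriving DecidableEq

section Q2

variable {R : Type*} [Add R] [Mul R] [Neg R] [Zero R] [One R] {α β : R}

instance : Add (Q2 α β) := ⟨fun x y => ⟨x.a + y.a, x.b + y.b⟩⟩
instance : Mul (Q2 α β) := ⟨fun x y => ⟨x.a * y.a + β * (x.b * y.b), x.a * y.b + x.b * y.a + α * (x.b * y.b)⟩⟩
instance : Neg (Q2 α β) := ⟨fun x => ⟨-x.a, -x.b⟩⟩
instance : Zero (Q2 α β) := ⟨⟨0, 0⟩⟩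
instance : One (Q2 α β) := ⟨⟨1, 0⟩⟩

variable {ι : R → K}

/-- Evaluation at a root. -/
def evQ2 (ι : R → K) (r : K) (x : Q2 α β) : K := ι x.a + ι x.b * r

theorem Emb.quad (h : Emb ι) {r : K} (hr : r * r = ι α * r + ι β) (hno : ∀ x : K, x ∈ Set.range ι → r ≠ x)
    (hinv : ∀ x : R, x ≠ 0 → ∃ y, x * y = 1) : Emb (evQ2 (α := α) (β := β) ι r) where
  add x y := by show ι (x.a + y.a) + ι (x.b + y.b) * r = _; rw [h.add, h.add, evQ2, evQ2]; ring
  mul x y := by
    show ι (x.a * y.a + β * (x.b * y.b)) + ι (x.a * y.b + x.b * y.a + α * (x.b * y.b)) * r = _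
    simp only [h.add, h.mul, evQ2]
    linear_combination -(ι x.b * ι y.b) * hr
  neg x := by show ι (-x.a) + ι (-x.b) * r = _; rw [h.neg, h.neg, evQ2]; ring
  zero := by show ι 0 + ι 0 * r = 0; rw [h.zero]; ring
  one := by show ι 1 + ι 0 * r = 1; rw [h.zero, h.one]; ring
  inj x hx := by
    obtain ⟨a, b⟩ := x
    change ι a + ι b * r = 0 at hx
    by_cases hb : b = 0
    · subst hb
      rw [h.zero, zero_mul, add_zero] at hx
      rw [h.inj a hx]
      rfl
    · obtain ⟨c, hc⟩ := hinv b hb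
      exfalso
      refine hno (ι (-(c * a))) ⟨_, rfl⟩ ?_
      rw [h.neg, h.mul]
      have e : ι b * ι c = 1 := by rw [← h.mul, hc, h.one]
      linear_combination ι c * hx - r * e

theorem exists_quad [Fintype K] (h : Emb ι) (h2 : (2 : K) ≠ 0)
    (hD : npow' (α * α + nat' 4 * β) ((Fintype.card K - 1) / 2) + -1 = (0 : R))
    (hroot : ∀ x : R, x * x + -(α * x + β) ≠ 0) (hinv : ∀ x : R, x ≠ 0 → ∃ y, x * y = 1) :
    ∃ r : K, Emb (evQ2 (α := α) (β := β) ι r) := by
  have e := congrArg ι hD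
  rw [h.add, h.map_pow, h.neg, h.one, h.zero] at e
  have hD' : ι (α * α + nat' 4 * β) ^ ((Fintype.card K - 1) / 2) = 1 := by linear_combination e
  have hchar : ringChar K ≠ 2 := fun e => h2 (by
    haveI : CharP K 2 := ringChar.eq_iff.1 e
    exact CharTwo.two_eq_zero)
  have hodd := FiniteField.odd_card_of_char_ne_two hchar
  have hsq : IsSquare (ι (α * α + nat' 4 * β)) := by
    by_cases h0 : ι (α * α + nat' 4 * β) = 0
    · rw [h0]; exact ⟨0, (mul_zero 0).symm⟩
    rw [FiniteField.isSquare_iff hchar h0]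
    rwa [show Fintype.card K / 2 = (Fintype.card K - 1) / 2 by
      obtain ⟨j, hj⟩ := Nat.odd_iff.2 hodd; omega]
  obtain ⟨w, hw⟩ := hsq
  rw [h.add, h.mul, h.mul, h.map_nat] at hw
  set r := (ι α + w) / 2
  have hr : r * r = ι α * r + ι β := by
    simp only [r]
    field_simp
    push_cast at hw
    linear_combination -hw
  refine ⟨r, h.quad hr ?_ hinv⟩
  rintro _ ⟨x, rfl⟩ e
  refine h.ne (hroot x) ?_
  rw [h.add, h.neg, h.add, h.mul, h.mul, ← e]
  linear_combination hr

end Q2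

/-- `𝔽₃[X]/(X³ - X - 1)`. -/
structure Q27 where
  /-- constant -/
  a : ZMod 3
  /-- linear -/
  b : ZMod 3
  /-- square -/
  c : ZMod 3
  deriving DecidableEq

instance : Add Q27 := ⟨fun x y => ⟨x.a + y.a, x.b + y.b, x.c + y.c⟩⟩
instance : Mul Q27 := ⟨fun x y =>
  ⟨x.a * y.a + (x.b * y.c + x.c * y.b),
   x.a * y.b + x.b * y.a + (x.b * y.c + x.c * y.b) + x.c * y.c,
   x.a * y.c + x.b * y.b + x.c * y.a + x.c * y.c⟩⟩
instance : Neg Q27 := ⟨fun x => ⟨-x.a, -x.b, -x.c⟩⟩
instance : Zero Q27 := ⟨⟨0, 0, 0⟩⟩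
instance : One Q27 := ⟨⟨1, 0, 0⟩⟩

theorem q27_inv : ∀ a b c : ZMod 3, (⟨a, b, c⟩ : Q27) ≠ 0 →
    ∃ a' b' c' : ZMod 3, (⟨a, b, c⟩ : Q27) * ⟨a', b', c'⟩ = 1 := by
  decide +kernel

theorem exists_emb27 [Fintype K] [CharP K 3] (hK : Fintype.card K = 27) :
    ∃ f : Q27 → K, Emb f := by
  classical
  have h3 : (3 : K) = 0 := by exact_mod_cast CharP.cast_eq_zero K 3
  -- a root of `X ^ 3 - X - 1`
  obtain ⟨r, hr⟩ : ∃ r : K, r ^ 3 - r = 1 := by
    by_contra hno
    push Not at hno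
    set I := Finset.univ.image fun x : K => x ^ 3 - x with hI
    have hfib : Fintype.card K ≤ 3 * I.card := by
      rw [← Finset.card_univ]
      refine Finset.card_le_mul_card_image _ 3 fun y hy => ?_
      set P : Polynomial K := Polynomial.X ^ 3 - Polynomial.X - Polynomial.C y with hP
      have hdeg : P.natDegree = 3 := by rw [hP]; compute_degree!
      refine le_trans (Finset.card_le_card (t := P.roots.toFinset) fun x hx => ?_) ?_
      · simp only [Finset.mem_filter, Finset.mem_univ, true_and] at hx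
        rw [Multiset.mem_toFinset, Polynomial.mem_roots (fun e => by simp [e] at hdeg),
          Polynomial.IsRoot, hP]
        simp [hx]
      · exact le_trans (Multiset.toFinset_card_le _) (le_trans (Polynomial.card_roots' P) hdeg.le)
    set Q : Polynomial K := Polynomial.X ^ 9 + Polynomial.X ^ 3 + Polynomial.X with hQ
    have hdeg : Q.natDegree = 9 := by rw [hQ]; compute_degree!
    have hsub : insert (1 : K) I ⊆ Q.roots.toFinset := by
      intro z hz
      rw [Multiset.mem_toFinset, Polynomial.mem_roots (fun e => by simp [e] at hdeg), Polynomial.IsRoot, hQ]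
      simp only [Polynomial.eval_add, Polynomial.eval_pow, Polynomial.eval_X]
      rcases Finset.mem_insert.1 hz with rfl | hz
      · linear_combination h3
      · obtain ⟨x, -, rfl⟩ := Finset.mem_image.1 hz
        have hx := FiniteField.pow_card x
        rw [hK] at hx
        have hadd : ∀ u v : K, (u - v) ^ 3 = u ^ 3 - v ^ 3 := fun u v => sub_pow_char u v
        rw [show (x ^ 3 - x) ^ 9 = ((x ^ 3 - x) ^ 3) ^ 3 by ring, hadd, hadd]
        linear_combination hx
    have h1 : (1 : K) ∉ I := fun hm => by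
      obtain ⟨x, -, e⟩ := Finset.mem_image.1 hm
      exact hno x e
    have := (Finset.card_le_card hsub).trans
      ((Multiset.toFinset_card_le _).trans ((Polynomial.card_roots' Q).trans hdeg.le))
    rw [Finset.card_insert_of_notMem h1] at this
    omega
  haveI : Fact (Nat.Prime 3) := ⟨by norm_num⟩
  set ι := ZMod.castHom (dvd_refl 3) K
  let f : Q27 → K := fun x => ι x.a + ι x.b * r + ι x.c * r ^ 2
  have hmul : ∀ x y, f (x * y) = f x * f y := fun x y => by
    show ι (x.a * y.a + (x.b * y.c + x.c * y.b)) +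
        ι (x.a * y.b + x.b * y.a + (x.b * y.c + x.c * y.b) + x.c * y.c) * r +
        ι (x.a * y.c + x.b * y.b + x.c * y.a + x.c * y.c) * r ^ 2 = _
    simp only [map_add, map_mul, f]
    linear_combination (-(ι x.b * ι y.c + ι x.c * ι y.b) - ι x.c * ι y.c * r) * hr
  have h1 : f 1 = 1 := by show ι 1 + ι 0 * r + ι 0 * r ^ 2 = 1; simp
  refine ⟨f, ⟨fun x y => ?_, hmul, fun x => ?_, ?_, h1, fun x hx => ?_⟩⟩
  · show ι (x.a + y.a) + ι (x.b + y.b) * r + ι (x.c + y.c) * r ^ 2 = _
    simp only [map_add, f]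
    ring
  · show ι (-x.a) + ι (-x.b) * r + ι (-x.c) * r ^ 2 = _
    simp only [map_neg, f]
    ring
  · show ι 0 + ι 0 * r + ι 0 * r ^ 2 = 0
    simp
  · by_contra hne
    obtain ⟨a', b', c', e⟩ := q27_inv x.a x.b x.c hne
    have := congrArg f e
    rw [hmul, hx, zero_mul, h1] at this
    exact zero_ne_one this

end Cfsg.Agent.Known.SU3
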